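import Mathlib

/-! Recognising generalised quaternion groups and their subgroups. -/

set_option autoImplicit false

namespace CA.Quat

variable {G : Type*} [Group G]

theorem pow_val_add {x : G} {m : ℕ} [NeZero m] (hx : x ^ m = 1) (i j : ZMod m) :
    x ^ (i + j).val = x ^ i.val * x ^ j.val := by
  rw [ZMod.val_add, ← pow_add]
  conv_rhs => rw [← Nat.mod_add_div (i.val + j.val) m, pow_add, pow_mul, hx, one_pow, mul_one]

theorem pow_val_neg {x : G} {m : ℕ} [NeZero m] (hx : x ^ m = 1) (i : ZMod m) :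
    x ^ (-i).val = (x ^ i.val)⁻¹ := by
  rw [eq_inv_iff_mul_eq_one, ← pow_val_add hx]; simp

theorem pow_val_natCast {x : G} {m : ℕ} [NeZero m] (hx : x ^ m = 1) (k : ℕ) :
    x ^ (k : ZMod m).val = x ^ k := by
  rw [ZMod.val_natCast]
  conv_rhs => rw [← Nat.mod_add_div k m, pow_add, pow_mul, hx, one_pow, mul_one]

/-- The homomorphism out of a generalised quaternion group given by two elements satisfying its
relations. -/
def lift {n : ℕ} [NeZero n] (x y : G) (hx : x ^ (2 * n) = 1) (hy : y * y = x ^ n)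
    (hxy : x * y = y * x⁻¹) : QuaternionGroup n →* G :=
  MonoidHom.mk' (fun g => match g with
    | .a i => x ^ i.val
    | .xa i => y * x ^ i.val) (by
    have h1 : ∀ k : ℕ, x ^ k * y = y * (x ^ k)⁻¹ := fun k => by
      have : SemiconjBy y x⁻¹ x := hxy.symm
      simpa using (this.pow_right k).eq.symm
    rintro (i | i) (j | j)
    · exact pow_val_add hx i j
    · change y * x ^ (j - i).val = x ^ i.val * (y * x ^ j.val)
      rw [← mul_assoc, h1, sub_eq_neg_add, pow_val_add hx, pow_val_neg hx, mul_assoc]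
    · change y * x ^ (i + j).val = y * x ^ i.val * x ^ j.val
      rw [pow_val_add hx, mul_assoc]
    · change x ^ ((n : ZMod (2 * n)) + j - i).val = y * x ^ i.val * (y * x ^ j.val)
      rw [mul_assoc, ← mul_assoc (x ^ i.val), h1, ← mul_assoc, ← mul_assoc, hy,
        show (n : ZMod (2 * n)) + j - i = n + -i + j by ring, pow_val_add hx, pow_val_add hx,
        pow_val_neg hx, pow_val_natCast hx])

theorem lift_a {n : ℕ} [NeZero n] (x y : G) (hx : x ^ (2 * n) = 1) (hy : y * y = x ^ n)
    (hxy : x * y = y * x⁻¹) (i : ZMod (2 * n)) : lift x y hx hy hxy (.a i) = x ^ i.val := rfl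

theorem lift_xa {n : ℕ} [NeZero n] (x y : G) (hx : x ^ (2 * n) = 1) (hy : y * y = x ^ n)
    (hxy : x * y = y * x⁻¹) (i : ZMod (2 * n)) : lift x y hx hy hxy (.xa i) = y * x ^ i.val := rfl

theorem lift_injective {n : ℕ} [NeZero n] (x y : G) (hx : x ^ (2 * n) = 1) (hy : y * y = x ^ n)
    (hxy : x * y = y * x⁻¹) (ho : orderOf x = 2 * n) (hn : 2 ≤ n) :
    Function.Injective (lift x y hx hy hxy) := by
  rw [injective_iff_map_eq_one]
  rintro (i | i) h
  · rw [lift_a] at h
    have h1 := orderOf_dvd_of_pow_eq_one h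
    rw [ho] at h1
    have h2 : i.val = 0 := Nat.eq_zero_of_dvd_of_lt h1 (ZMod.val_lt i)
    rw [ZMod.val_eq_zero] at h2
    rw [h2]; rfl
  · exfalso
    rw [lift_xa, mul_eq_one_iff_eq_inv] at h
    have h1 : Commute x y := by rw [h]; exact ((Commute.refl x).pow_right _).inv_right
    rw [h1.eq, mul_right_inj, eq_inv_iff_mul_eq_one, ← pow_two] at hxy
    have h2 := Nat.le_of_dvd (by norm_num) (orderOf_dvd_of_pow_eq_one hxy)
    omega

theorem nonempty_equiv [Finite G] {n : ℕ} (hn : 2 ≤ n) (x y : G) (ho : orderOf x = 2 * n)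
    (hy : y * y = x ^ n) (hxy : x * y = y * x⁻¹) (hc : Nat.card G ≤ 4 * n) :
    Nonempty (G ≃* QuaternionGroup n) := by
  have : NeZero n := ⟨by omega⟩
  have hx : x ^ (2 * n) = 1 := ho ▸ pow_orderOf_eq_one x
  have hinj := lift_injective x y hx hy hxy ho hn
  refine ⟨(MulEquiv.ofBijective (lift x y hx hy hxy) ?_).symm⟩
  refine hinj.bijective_of_nat_card_le ?_
  rw [Nat.card_eq_fintype_card (α := QuaternionGroup n), QuaternionGroup.card]
  exact hc

theorem not_isCyclic {n : ℕ} (hn : 2 ≤ n) : ¬ IsCyclic (QuaternionGroup n) := by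
  intro h
  have h1 := (IsCyclic.isMulCommutative (α := QuaternionGroup n)).is_comm.comm (.a 1) (.xa 0)
  simp only [QuaternionGroup.a_mul_xa, QuaternionGroup.xa_mul_a, QuaternionGroup.xa.injEq,
    zero_sub, zero_add] at h1
  have h2 : ((2 : ℕ) : ZMod (2 * n)) = 0 := by
    push_cast; linear_combination -h1
  rw [ZMod.natCast_eq_zero_iff] at h2
  have := Nat.le_of_dvd (by norm_num) h2
  omega

theorem eq_of_sq_eq_one {n : ℕ} [NeZero n] {i : ZMod (2 * n)} (h : i + i = 0) : i = 0 ∨ i = n := by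
  have h1 : ((2 * i.val : ℕ) : ZMod (2 * n)) = 0 := by
    push_cast; rw [ZMod.natCast_zmod_val]; linear_combination h
  rw [ZMod.natCast_eq_zero_iff] at h1
  obtain ⟨c, hc⟩ := Nat.dvd_of_mul_dvd_mul_left (by norm_num) h1
  have h2 := ZMod.val_lt i
  have h3 : c < 2 := by
    by_contra h4
    have : n * 2 ≤ n * c := Nat.mul_le_mul_left _ (by omega)
    omega
  rw [← ZMod.natCast_zmod_val i, hc]
  interval_cases c <;> simp

/-- A non-cyclic subgroup of a generalised quaternion 2-group is generalised quaternion. -/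
theorem subgroup_equiv {S : Type*} [Group S] {k : ℕ} (f : S →* QuaternionGroup (2 ^ k))
    (hf : Function.Injective f) (hS : ¬ IsCyclic S) :
    ∃ j : ℕ, 1 ≤ j ∧ Nonempty (S ≃* QuaternionGroup (2 ^ j)) := by
  have hfin : Finite S := Finite.of_injective f hf
  let A : Subgroup (QuaternionGroup (2 ^ k)) := Subgroup.zpowers (.a 1)
  have hA : ∀ i, QuaternionGroup.a i ∈ A := fun i => by
    rw [← ZMod.natCast_zmod_val i, ← QuaternionGroup.a_one_pow]
    exact pow_mem (Subgroup.mem_zpowers _) _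
  have hA' : ∀ g ∈ A, ∃ i, g = .a i := by
    intro g hg
    obtain ⟨m, rfl⟩ := (mem_powers_iff_mem_zpowers.2 hg)
    exact ⟨m, QuaternionGroup.a_one_pow m⟩
  let C : Subgroup S := A.comap f
  have hC : IsCyclic C := isCyclic_of_injective (f.subgroupComap A) (by
    intro a b h
    exact Subtype.ext (hf (congrArg Subtype.val h)))
  obtain ⟨⟨x, hxC⟩, hx⟩ := hC.exists_generator
  have hx' : ∀ s ∈ C, s ∈ Subgroup.zpowers x := fun s hs => by
    obtain ⟨m, hm⟩ := hx ⟨s, hs⟩
    exact ⟨m, by simpa using congrArg Subtype.val hm⟩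
  have hCx : C = Subgroup.zpowers x := le_antisymm hx' (by simpa using hxC)
  have hne : ∃ y, y ∉ C := by
    by_contra hcon
    push Not at hcon
    exact hS ⟨⟨x, fun s => hx' s (hcon s)⟩⟩
  obtain ⟨y, hy⟩ := hne
  obtain ⟨i, hi⟩ : ∃ i, f y = .xa i := by
    rcases h : f y with i | i
    · exact absurd (show f y ∈ A from h ▸ hA i) hy
    · exact ⟨i, rfl⟩
  obtain ⟨e, he⟩ := hA' _ hxC
  have hidx : C.index = 2 := by
    rw [Subgroup.index_eq_two_iff]
    refine ⟨y, fun b => ?_⟩
    rcases h : f b with j | j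
    · right
      refine ⟨show f b ∈ A from h ▸ hA j, fun h2 => ?_⟩
      obtain ⟨l, hl⟩ := hA' _ h2
      rw [map_mul, h, hi] at hl
      simp at hl
    · left
      refine ⟨show f (b * y) ∈ A by rw [map_mul, h, hi]; exact hA _, fun h2 => ?_⟩
      obtain ⟨l, hl⟩ := hA' _ h2
      rw [h] at hl
      simp at hl
  have hcard : Nat.card S = orderOf x * 2 := by
    rw [← Subgroup.card_mul_index C, hidx, hCx, Nat.card_zpowers]
  have hox : orderOf x ∣ 2 ^ (k + 1) := by
    rw [← orderOf_injective f hf, he, pow_succ']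
    apply orderOf_dvd_of_pow_eq_one
    rw [← ZMod.natCast_zmod_val e, ← QuaternionGroup.a_one_pow, ← pow_mul, mul_comm e.val, pow_mul,
      QuaternionGroup.a_one_pow_n, one_pow]
  obtain ⟨j, -, hj⟩ := (Nat.dvd_prime_pow Nat.prime_two).1 hox
  have hoy : orderOf y = 4 := by rw [← orderOf_injective f hf, hi, QuaternionGroup.orderOf_xa]
  have hj2 : 2 ≤ j := by
    by_contra hlt
    apply hS
    refine isCyclic_of_orderOf_eq_card y ?_
    have h1 := orderOf_le_card (x := y)
    have h2 : 2 ^ j ≤ 2 ^ 1 := Nat.pow_le_pow_right (by norm_num) (by omega)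
    omega
  obtain ⟨j, rfl⟩ : ∃ j', j = j' + 1 := ⟨j - 1, by omega⟩
  refine ⟨j, by omega, nonempty_equiv (n := 2 ^ j) ?_ x y (by rw [hj, pow_succ']) ?_ ?_
    (by rw [hcard, hj, pow_succ]; omega)⟩
  · calc 2 = 2 ^ 1 := rfl
      _ ≤ 2 ^ j := Nat.pow_le_pow_right (by norm_num) (by omega)
  · obtain ⟨d, hd⟩ := hA' (f (x ^ 2 ^ j)) (C.pow_mem hxC _)
    have h1 : x ^ 2 ^ j * x ^ 2 ^ j = 1 := by
      rw [← pow_add, ← two_mul, ← pow_succ', ← hj, pow_orderOf_eq_one]
    have h2 : d + d = 0 := by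
      have := congrArg f h1
      rw [map_mul, hd, map_one, QuaternionGroup.a_mul_a, QuaternionGroup.one_def] at this
      exact QuaternionGroup.a.inj this
    rcases eq_of_sq_eq_one h2 with h3 | h3
    · exfalso
      rw [h3, QuaternionGroup.a_zero, ← map_one f] at hd
      have h4 := orderOf_dvd_of_pow_eq_one (hf hd)
      rw [hj] at h4
      have := Nat.le_of_dvd (by positivity) h4
      rw [pow_succ] at this
      have : 0 < 2 ^ j := by positivity
      omega
    · apply hf
      rw [map_mul, hi, hd, h3]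
      simp
  · apply hf
    rw [map_mul, map_mul, map_inv, he, hi, eq_mul_inv_iff_mul_eq]
    simp

end CA.Quat
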