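import Cfsg.Agent.Lib.Classical.Linear
import Cfsg.Agent.Lib.Classical.Quat

/-! Sylow subgroups of `GL₂` and `SL₂` over finite fields. -/

set_option autoImplicit false

open Matrix Matrix.SpecialLinearGroup
open scoped MatrixGroups LinearAlgebra.Projectivization Pointwise

namespace CA.SL2

variable {F : Type*} [Field F]

/-- The point spanned by the first basis vector. -/
def e0 (F : Type*) [Field F] : ℙ F (Fin 2 → F) :=
  Projectivization.mk F (Pi.single 0 1) (Pi.single_ne_zero_iff.2 one_ne_zero)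

/-- The point spanned by the second basis vector. -/
def e1 (F : Type*) [Field F] : ℙ F (Fin 2 → F) :=
  Projectivization.mk F (Pi.single 1 1) (Pi.single_ne_zero_iff.2 one_ne_zero)

theorem e0_ne_e1 : e0 F ≠ e1 F := by
  intro h
  rw [e0, e1, Projectivization.mk_eq_mk_iff'] at h
  obtain ⟨a, ha⟩ := h
  simpa using congrFun ha 0

/-- The upper unitriangular matrix. -/
abbrev up (b : F) : SL(2, F) := transvection zero_ne_one b

/-- The lower unitriangular matrix. -/
abbrev lo (b : F) : SL(2, F) := transvection one_ne_zero b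

theorem up_coe (b : F) : (up b : Matrix (Fin 2) (Fin 2) F) = !![1, b; 0, 1] := by
  ext i j; fin_cases i <;> fin_cases j <;> simp [transvection_coe]

theorem lo_coe (b : F) : (lo b : Matrix (Fin 2) (Fin 2) F) = !![1, 0; b, 1] := by
  ext i j; fin_cases i <;> fin_cases j <;> simp [transvection_coe]

theorem up_injective : Function.Injective (up : F → SL(2, F)) := by
  intro a b h
  have := congrArg (fun g : SL(2, F) => g 0 1) h
  simpa [up_coe] using this

theorem eq_up_of {A : SL(2, F)} (h10 : A 1 0 = 0) (h11 : A 1 1 = 1) : A = up (A 0 1) := by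
  have hd := A.det_coe
  rw [det_fin_two, h10, h11] at hd
  apply Subtype.ext
  rw [up_coe]
  ext i j; fin_cases i <;> fin_cases j <;> simp_all

/-- The group of transvections with centre `x`. -/
noncomputable abbrev US (x : ℙ F (Fin 2 → F)) : Subgroup SL(2, F) := lineStab x.submodule

theorem mem_US_e0 {A : SL(2, F)} : A ∈ US (e0 F) ↔ ∃ b, A = up b := by
  constructor
  · intro h
    rw [US, e0, Projectivization.submodule_mk, mem_lineStab_iff] at h
    obtain ⟨a, ha⟩ := Submodule.mem_span_singleton.1 (h (Pi.single 0 1))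
    obtain ⟨b, hb⟩ := Submodule.mem_span_singleton.1 (h (Pi.single 1 1))
    have h1 := congrFun ha 1
    have h2 := congrFun hb 1
    simp [Matrix.SpecialLinearGroup.smul_def] at h1 h2
    exact ⟨_, eq_up_of h1.symm (by linear_combination -h2)⟩
  · rintro ⟨b, rfl⟩
    exact SL2Gen.transvection_mem_lineStab zero_ne_one b

theorem card_US_e0 : Nat.card (US (e0 F)) = Nat.card F :=
  (Nat.card_congr (Equiv.ofBijective (fun b : F => (⟨up b, mem_US_e0.2 ⟨b, rfl⟩⟩ : US (e0 F)))
    ⟨fun _ _ h => up_injective (congrArg Subtype.val h), fun ⟨_, hA⟩ => by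
      obtain ⟨b, rfl⟩ := mem_US_e0.1 hA
      exact ⟨b, rfl⟩⟩)).symm

theorem US_smul (g : SL(2, F)) (x : ℙ F (Fin 2 → F)) : US (g • x) = MulAut.conj g • US x := by
  rw [US, PSL.smul_submodule, lineStab_smul]

theorem US_inf {x y : ℙ F (Fin 2 → F)} (h : x ≠ y) : US x ⊓ US y = ⊥ := by
  rw [eq_bot_iff]
  rintro A ⟨hx, hy⟩
  rw [Subgroup.mem_bot]
  apply Subtype.ext
  refine ext_iff_smul.2 fun w => ?_
  have h1 : A • w - w = 0 := by
    by_contra h0
    apply h
    have key : ∀ z : ℙ F (Fin 2 → F), A • w - w ∈ z.submodule →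
        z = Projectivization.mk F _ h0 := by
      intro z hz
      induction z using Projectivization.ind with | _ v hv =>
      rw [Projectivization.submodule_mk, Submodule.mem_span_singleton] at hz
      exact ((Projectivization.mk_eq_mk_iff' F _ _ h0 hv).2 hz).symm
    rw [key x (hx w), key y (hy w)]
  rw [sub_eq_zero] at h1
  rw [coe_one, one_smul]
  exact h1

theorem exists_smul_e0 (x : ℙ F (Fin 2 → F)) : ∃ g : SL(2, F), g • e0 F = x :=
  MulAction.exists_smul_eq _ _ _

theorem card_US (x : ℙ F (Fin 2 → F)) : Nat.card (US x) = Nat.card F := by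
  obtain ⟨g, rfl⟩ := exists_smul_e0 x
  rw [US_smul, ← card_US_e0 (F := F)]
  exact (Nat.card_congr (Subgroup.equivSMul (MulAut.conj g) _).toEquiv).symm

theorem US_ne_bot (x : ℙ F (Fin 2 → F)) : US x ≠ ⊥ := by
  obtain ⟨g, rfl⟩ := exists_smul_e0 x
  rw [US_smul]
  intro h
  have h1 : MulAut.conj g • up (1 : F) ∈ MulAut.conj g • US (e0 F) :=
    Subgroup.smul_mem_pointwise_smul _ _ _ (mem_US_e0.2 ⟨1, rfl⟩)
  rw [h, Subgroup.mem_bot, MulAut.smul_def, EmbeddingLike.map_eq_one_iff] at h1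
  have := up_injective (h1.trans (transvection_coeff_zero zero_ne_one).symm)
  exact one_ne_zero this

theorem US_injective : Function.Injective (US : ℙ F (Fin 2 → F) → Subgroup SL(2, F)) := by
  intro x y h
  by_contra hxy
  have := US_inf hxy
  rw [h, inf_idem] at this
  exact US_ne_bot y this

theorem US_sup {x y : ℙ F (Fin 2 → F)} (h : x ≠ y) : US x ⊔ US y = ⊤ := by
  obtain ⟨g, rfl, rfl⟩ := MulAction.is_two_pretransitive_iff.1
    (inferInstance : MulAction.IsMultiplyPretransitive SL(2, F) (ℙ F (Fin 2 → F)) 2) e0_ne_e1 h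
  rw [US_smul, US_smul, ← Subgroup.smul_sup]
  have : US (e0 F) ⊔ US (e1 F) = ⊤ := SL2Gen.SL_card_two_lineStab_sup_eq_top
  rw [this]
  ext a
  simp

/-- The group of transvections with centre `x` inside `GL₂`. -/
noncomputable def UG (x : ℙ F (Fin 2 → F)) : Subgroup (GL (Fin 2) F) := (US x).map toGL

theorem mem_UG {x : ℙ F (Fin 2 → F)} {a : GL (Fin 2) F} :
    a ∈ UG x ↔ GeneralLinearGroup.det a = 1 ∧ ∀ w : Fin 2 → F, a • w - w ∈ x.submodule := by
  constructor
  · rintro ⟨A, hA, rfl⟩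
    exact ⟨coeToGL_det A, hA⟩
  · rintro ⟨h1, h2⟩
    have : a ∈ (toGL : SL(2, F) →* GL (Fin 2) F).range := by
      rw [CA.Lin.range_toGL_eq_ker_det]; exact h1
    obtain ⟨A, rfl⟩ := this
    exact ⟨A, h2, rfl⟩

theorem UG_smul (g : GL (Fin 2) F) (x : ℙ F (Fin 2 → F)) : UG (g • x) = MulAut.conj g • UG x := by
  induction x using Projectivization.ind with | _ v hv =>
  ext a
  rw [Subgroup.mem_pointwise_smul_iff_inv_smul_mem, mem_UG, mem_UG, Projectivization.smul_mk]
  simp only [Projectivization.submodule_mk, Submodule.mem_span_singleton, MulAut.smul_def,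
    MulAut.inv_apply, MulAut.conj_symm_apply, map_mul, map_inv]
  refine and_congr ?_ ⟨fun h w => ?_, fun h w => ?_⟩
  · rw [mul_comm _ (GeneralLinearGroup.det g), mul_inv_cancel_left]
  · obtain ⟨c, hc⟩ := h (g • w)
    refine ⟨c, ?_⟩
    rw [mul_smul, mul_smul, ← inv_smul_smul g w, smul_inv_smul, ← smul_sub, ← hc, smul_comm c g,
      inv_smul_smul]
  · obtain ⟨c, hc⟩ := h (g⁻¹ • w)
    refine ⟨c, ?_⟩
    rw [smul_comm c g, hc, mul_smul, mul_smul, smul_sub, smul_inv_smul, smul_inv_smul]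

theorem card_UG (x : ℙ F (Fin 2 → F)) : Nat.card (UG x) = Nat.card F := by
  rw [UG, Subgroup.card_map_of_injective toGL_injective, card_US]

theorem UG_inf {x y : ℙ F (Fin 2 → F)} (h : x ≠ y) : UG x ⊓ UG y = ⊥ := by
  rw [UG, UG, ← Subgroup.map_inf _ _ _ toGL_injective, US_inf h, Subgroup.map_bot]

theorem UG_injective : Function.Injective (UG : ℙ F (Fin 2 → F) → Subgroup (GL (Fin 2) F)) :=
  fun _ _ h => US_injective (Subgroup.map_injective toGL_injective h)

theorem card_proj_line [Finite F] : Nat.card (ℙ F (Fin 2 → F)) = Nat.card F + 1 :=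
  Projectivization.card_of_finrank_two F _ (by simp)

section finite
variable [Fintype F] (p : ℕ) [hp : Fact p.Prime] [CharP F p]

theorem card_sylow_SL (P : Sylow p SL(2, F)) : Nat.card P = Fintype.card F := by
  obtain ⟨f, -, hf⟩ := FiniteField.card F p
  have h := CA.Lin.card_SL_two (F := F)
  nth_rw 1 [hf] at h
  rw [CA.Lin.card_sylow_of_card_eq h (CA.Lin.not_dvd_card_pow_sub_one p two_ne_zero) P, hf]

/-- The transvection groups are Sylow subgroups. -/
noncomputable def sylS (x : ℙ F (Fin 2 → F)) : Sylow p SL(2, F) :=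
  Sylow.ofCard (US x) (by
    rw [← Sylow.card_eq_multiplicity (default : Sylow p SL(2, F)), card_sylow_SL, card_US,
      Nat.card_eq_fintype_card])

/-- The transvection groups are Sylow subgroups. -/
noncomputable def sylG (x : ℙ F (Fin 2 → F)) : Sylow p (GL (Fin 2) F) :=
  Sylow.ofCard (UG x) (by
    rw [← Sylow.card_eq_multiplicity (default : Sylow p (GL (Fin 2) F)), CA.Lin.card_sylow_GL,
      card_UG, Nat.card_eq_fintype_card]
    simp)

theorem exists_US (P : Sylow p SL(2, F)) : ∃ x, (P : Subgroup SL(2, F)) = US x := by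
  obtain ⟨g, rfl⟩ := MulAction.exists_smul_eq SL(2, F) (sylS p (e0 F)) P
  exact ⟨g • e0 F, by rw [US_smul]; rfl⟩

theorem exists_UG (P : Sylow p (GL (Fin 2) F)) : ∃ x, (P : Subgroup (GL (Fin 2) F)) = UG x := by
  obtain ⟨g, rfl⟩ := MulAction.exists_smul_eq (GL (Fin 2) F) (sylG p (e0 F)) P
  exact ⟨g • e0 F, by rw [UG_smul]; rfl⟩

theorem card_sylows_GL : Nat.card (Sylow p (GL (Fin 2) F)) = Fintype.card F + 1 := by
  rw [← Nat.card_eq_fintype_card, ← card_proj_line]
  refine (Nat.card_congr (Equiv.ofBijective (sylG p) ⟨fun x y h => ?_, fun P => ?_⟩)).symm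
  · exact UG_injective (congrArg Sylow.toSubgroup h)
  · obtain ⟨x, hx⟩ := exists_UG p P
    exact ⟨x, Sylow.ext hx.symm⟩

theorem card_sylows_SL : Nat.card (Sylow p SL(2, F)) = Fintype.card F + 1 := by
  rw [← Nat.card_eq_fintype_card, ← card_proj_line]
  refine (Nat.card_congr (Equiv.ofBijective (sylS p) ⟨fun x y h => ?_, fun P => ?_⟩)).symm
  · exact US_injective (congrArg Sylow.toSubgroup h)
  · obtain ⟨x, hx⟩ := exists_US p P
    exact ⟨x, Sylow.ext hx.symm⟩

theorem sylow_GL_inf (P Q : Sylow p (GL (Fin 2) F)) (h : P ≠ Q) :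
    (P : Subgroup (GL (Fin 2) F)) ⊓ Q = ⊥ := by
  obtain ⟨x, hx⟩ := exists_UG p P
  obtain ⟨y, hy⟩ := exists_UG p Q
  rw [hx, hy]
  exact UG_inf fun hxy => h (Sylow.ext (by rw [hx, hy, hxy]))

theorem sylow_SL_sup (P Q : Sylow p SL(2, F)) (h : P ≠ Q) :
    (P : Subgroup SL(2, F)) ⊔ Q = ⊤ := by
  obtain ⟨x, hx⟩ := exists_US p P
  obtain ⟨y, hy⟩ := exists_US p Q
  rw [hx, hy]
  exact US_sup fun hxy => h (Sylow.ext (by rw [hx, hy, hxy]))

theorem card_normalizer_sylow_GL (P : Sylow p (GL (Fin 2) F)) :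
    Nat.card (Subgroup.normalizer ((P : Subgroup (GL (Fin 2) F)) : Set (GL (Fin 2) F))) =
      Fintype.card F * (Fintype.card F - 1) ^ 2 := by
  have h1 := Subgroup.card_mul_index
    (Subgroup.normalizer ((P : Subgroup (GL (Fin 2) F)) : Set (GL (Fin 2) F)))
  have h2 := P.card_eq_index_normalizer
  rw [card_sylows_GL] at h2
  rw [Sylow.coe_coe] at h1 ⊢
  rw [← h2, CA.Lin.card_GL_two] at h1
  apply Nat.eq_of_mul_eq_mul_right (Nat.succ_pos (Fintype.card F))
  rw [h1]
  obtain ⟨k, hk⟩ : ∃ k, Fintype.card F = k + 1 := ⟨_, (Nat.succ_pred_eq_of_pos Fintype.card_pos).symm⟩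
  rw [hk]
  have e1 : (k + 1) ^ 2 - 1 = k * (k + 2) := by
    rw [show (k + 1) ^ 2 = k * (k + 2) + 1 by ring]; rfl
  have e2 : (k + 1) ^ 2 - (k + 1) = k * (k + 1) := by
    rw [show (k + 1) ^ 2 = k * (k + 1) + (k + 1) by ring]; simp
  rw [e1, e2]; simp only [Nat.add_sub_cancel, Nat.succ_eq_add_one]; ring

end finite

theorem card_centralizer_conj {G : Type*} [Group G] (g a : G) :
    Nat.card (Subgroup.centralizer ({g * a * g⁻¹} : Set G)) =
      Nat.card (Subgroup.centralizer ({a} : Set G)) := by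
  refine Nat.card_congr
    { toFun := fun c => ⟨g⁻¹ * c * g, ?_⟩
      invFun := fun c => ⟨g * c * g⁻¹, ?_⟩
      left_inv := fun c => by ext; simp [mul_assoc]
      right_inv := fun c => by ext; simp [mul_assoc] }
  · have := Subgroup.mem_centralizer_singleton_iff.1 c.2
    rw [Subgroup.mem_centralizer_singleton_iff]
    calc g⁻¹ * c * g * a = g⁻¹ * (c * (g * a * g⁻¹)) * g := by group
      _ = _ := by rw [this]; group
  · have := Subgroup.mem_centralizer_singleton_iff.1 c.2
    rw [Subgroup.mem_centralizer_singleton_iff]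
    calc g * c * g⁻¹ * (g * a * g⁻¹) = g * (c * a) * g⁻¹ := by group
      _ = _ := by rw [this]; group

theorem card_centralizer_up {b : F} (hb : b ≠ 0) :
    Nat.card (Subgroup.centralizer ({toGL (up b)} : Set (GL (Fin 2) F))) =
      Nat.card F * Nat.card Fˣ := by
  rw [← Nat.card_prod]
  refine (Nat.card_congr (Equiv.ofBijective (fun x : F × Fˣ =>
    (⟨GeneralLinearGroup.mkOfDetNeZero !![x.2, x.1; 0, x.2] (by simp [det_fin_two]), ?_⟩ :
      Subgroup.centralizer ({toGL (up b)} : Set (GL (Fin 2) F)))) ⟨?_, ?_⟩)).symm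
  · rw [Subgroup.mem_centralizer_singleton_iff]
    apply Units.ext
    simp only [Units.val_mul, coe_GL_coe_matrix, up_coe]
    change !![(x.2 : F), x.1; 0, x.2] * _ = _ * !![(x.2 : F), x.1; 0, x.2]
    ext i j; fin_cases i <;> fin_cases j <;> simp [mul_comm, add_comm]
  · rintro ⟨t, s⟩ ⟨t', s'⟩ h
    have h1 := congrArg (fun g => g.1 0 1) h
    have h2 := congrArg (fun g => g.1 0 0) h
    exact Prod.ext h1 (Units.ext h2)
  · rintro ⟨g, hg⟩
    rw [Subgroup.mem_centralizer_singleton_iff] at hg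
    have h := congrArg Units.val hg
    simp only [Units.val_mul, coe_GL_coe_matrix, up_coe] at h
    have h00 := congrFun (congrFun h 0) 0
    have h01 := congrFun (congrFun h 0) 1
    simp [Matrix.mul_apply, Fin.sum_univ_two, hb] at h00 h01
    have h11 : g 1 1 = g 0 0 := mul_left_cancel₀ hb (by linear_combination -h01)
    have hd := g.det_ne_zero
    rw [det_fin_two, h00, h11] at hd
    refine ⟨(g 0 1, Units.mk0 (g 0 0) (fun h => hd (by simp [h]))), Subtype.ext (Units.ext ?_)⟩
    change !![g 0 0, g 0 1; 0, g 0 0] = g.1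
    ext i j; fin_cases i <;> fin_cases j <;> simp [h00, h11]

theorem card_centralizer_of_mem_UG {x : ℙ F (Fin 2 → F)} {a : GL (Fin 2) F} (ha : a ∈ UG x)
    (ha1 : a ≠ 1) : Nat.card (Subgroup.centralizer ({a} : Set (GL (Fin 2) F))) =
      Nat.card F * Nat.card Fˣ := by
  obtain ⟨g, rfl⟩ := exists_smul_e0 x
  rw [← CA.Lin.toGL_smul, UG_smul, Subgroup.mem_smul_pointwise_iff_exists] at ha
  obtain ⟨_, ⟨A, hA, rfl⟩, rfl⟩ := ha
  obtain ⟨b, rfl⟩ := mem_US_e0.1 hA
  have hb : b ≠ 0 := by rintro rfl; simp at ha1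
  rw [← card_centralizer_up hb]
  exact card_centralizer_conj _ _

/-! ### Traces and involutions -/

theorem sq_eq (g : SL(2, F)) :
    (g : Matrix (Fin 2) (Fin 2) F) * g = (g : Matrix (Fin 2) (Fin 2) F).trace • g.1 - 1 := by
  have hd := g.det_coe
  rw [det_fin_two] at hd
  ext i j
  fin_cases i <;> fin_cases j <;> simp [Matrix.mul_apply, Fin.sum_univ_two, trace_fin_two] <;>
    first | ring1 | linear_combination (-1 : F) * hd

theorem eq_neg_one_of_involution (h2 : (2 : F) ≠ 0) (g : SL(2, F)) (h1 : g ≠ 1) (hg : g * g = 1) :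
    (g : Matrix (Fin 2) (Fin 2) F) = -1 := by
  have h := congrArg Subtype.val hg
  rw [coe_mul] at h
  have hd := g.det_coe
  rw [det_fin_two] at hd
  have h00 := congrFun (congrFun h 0) 0
  have h01 := congrFun (congrFun h 0) 1
  have h10 := congrFun (congrFun h 1) 0
  have h11 := congrFun (congrFun h 1) 1
  simp [Matrix.mul_apply, Fin.sum_univ_two] at h00 h01 h10 h11
  have ht : g 0 0 + g 1 1 ≠ 0 := by
    intro ht
    apply h2
    linear_combination -h00 - hd + g 0 0 * ht
  have hb : g 0 1 = 0 := mul_left_cancel₀ ht (by linear_combination h01)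
  have hc : g 1 0 = 0 := mul_left_cancel₀ ht (by linear_combination h10)
  rw [hb] at h00 hd
  have had : g 1 1 = g 0 0 := by linear_combination (-g 1 1) * h00 + g 0 0 * hd
  rcases mul_self_eq_one_iff.1 (show g 0 0 * g 0 0 = 1 by linear_combination h00) with h3 | h3
  · exfalso; apply h1
    ext i j; fin_cases i <;> fin_cases j <;> simp [hb, hc, had, h3]
  · ext i j; fin_cases i <;> fin_cases j <;> simp [hb, hc, had, h3]

theorem two_ne_zero_of_odd [Fintype F] (hF : Odd (Fintype.card F)) : (2 : F) ≠ 0 := by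
  refine Ring.two_ne_zero fun h => ?_
  have := FiniteField.even_card_of_char_two h
  rw [Nat.odd_iff] at hF
  omega

/-! ### Cyclic tori -/

theorem mem_range_of_pow_card [Fintype F] {K : Type*} [Field K] [Algebra F K] {x : K}
    (hx : x ^ Fintype.card F = x) : ∃ t : F, algebraMap F K t = x := by
  classical
  have h1 := FiniteField.roots_X_pow_card_sub_X F
  have hs : (Polynomial.X ^ Fintype.card F - Polynomial.X : Polynomial F).Splits := by
    rw [Polynomial.splits_iff_card_roots, h1,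
      FiniteField.X_pow_card_sub_X_natDegree_eq F Fintype.one_lt_card]
    simp
  have h2 := hs.roots_map (algebraMap F K)
  have h3 : x ∈ ((Polynomial.X ^ Fintype.card F - Polynomial.X : Polynomial F).map
      (algebraMap F K)).roots := by
    rw [Polynomial.mem_roots (Polynomial.map_ne_zero
      (FiniteField.X_pow_card_sub_X_ne_zero F Fintype.one_lt_card))]
    simp [hx]
  rw [h2, Multiset.mem_map] at h3
  obtain ⟨t, -, ht⟩ := h3
  exact ⟨t, ht⟩

/-- An element of `SL₂` from its entries. -/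
def mk2 (a b c d : F) (h : a * d - b * c = 1) : SL(2, F) :=
  ⟨!![a, b; c, d], by rwa [det_fin_two_of]⟩

@[simp] theorem mk2_coe (a b c d : F) (h : a * d - b * c = 1) :
    (mk2 a b c d h : Matrix (Fin 2) (Fin 2) F) = !![a, b; c, d] := rfl

/-- The companion matrix of `X² - t X + 1`. -/
def comp (t : F) : SL(2, F) := mk2 0 (-1) 1 t (by simp)

theorem orderOf_comp {K : Type*} [Field K] [Algebra F K] {z : K} (hz : z ≠ 0) (hz2 : z ^ 2 ≠ 1)
    {t : F} (ht : algebraMap F K t = z + z⁻¹) : orderOf (comp t) = orderOf z := by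
  let φ : SL(2, F) →* SL(2, K) := SpecialLinearGroup.map (algebraMap F K)
  have hφ : Function.Injective φ := by
    intro a b h
    ext i j
    exact (algebraMap F K).injective (congrArg (fun g : SL(2, K) => g i j) h)
  have hzz : z - z⁻¹ ≠ 0 := by
    intro h; apply hz2
    have : z * z⁻¹ = 1 := mul_inv_cancel₀ hz
    linear_combination z * h + this
  let P : GL (Fin 2) K := GeneralLinearGroup.mkOfDetNeZero !![1, 1; -z, -z⁻¹] (by
    simp only [det_fin_two_of]; intro h; exact hzz (by linear_combination h))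
  let D : Kˣ →* SL(2, K) := MonoidHom.mk' (fun u => diag2 (u : K) u.ne_zero) (by
    intro a b
    apply Subtype.ext
    simp only [coe_mul, diag2_coe', Units.val_mul]
    ext i j; fin_cases i <;> fin_cases j <;> simp [mul_comm])
  have hD : Function.Injective D := by
    intro a b h
    exact Units.ext (congrArg (fun g : SL(2, K) => g.1 0 0) h)
  have h1 : SemiconjBy P (toGL (D (Units.mk0 z hz))) (toGL (φ (comp t))) := by
    apply Units.ext
    change !![1, 1; -z, -z⁻¹] * (diag2 z hz).1 =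
      (!![0, -1; 1, t] : Matrix _ _ F).map (algebraMap F K) * !![1, 1; -z, -z⁻¹]
    rw [diag2_coe']
    have hzi : z * z⁻¹ = 1 := mul_inv_cancel₀ hz
    ext i j; fin_cases i <;> fin_cases j <;> simp [Matrix.mul_apply, Fin.sum_univ_two, ht] <;>
      linear_combination hzi
  rw [← orderOf_injective φ hφ, ← orderOf_injective toGL toGL_injective, ← h1.orderOf_eq,
    orderOf_injective toGL toGL_injective, orderOf_injective D hD, ← orderOf_units]
  rfl

theorem exists_comp_orderOf [Fintype F] {n : ℕ} (hn : 2 < n)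
    (h : n ∣ Fintype.card F - 1 ∨ n ∣ Fintype.card F + 1) :
    ∃ t : F, t ^ 2 ≠ 4 ∧ orderOf (comp t) = n := by
  have hq : 1 < Fintype.card F := Fintype.one_lt_card
  have hn0 : NeZero (n : F) := ⟨fun h0 => by
    have hc : (Fintype.card F : F) = 0 := FiniteField.cast_card_eq_zero F
    rcases h with ⟨c, h⟩ | ⟨c, h⟩
    · have := congrArg (Nat.cast : ℕ → F) h
      rw [Nat.cast_sub hq.le] at this
      simp [hc, h0] at this
    · have := congrArg (Nat.cast : ℕ → F) h
      simp [hc, h0] at this⟩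
  obtain ⟨z, hz⟩ := HasEnoughRootsOfUnity.exists_primitiveRoot (AlgebraicClosure F) n
  have hz0 : z ≠ 0 := hz.ne_zero (by omega)
  have hz2 : z ^ 2 ≠ 1 := hz.pow_ne_one_of_pos_of_lt (by norm_num) hn
  have hfix : (z + z⁻¹) ^ Fintype.card F = z + z⁻¹ := by
    obtain ⟨p, hp⟩ := CharP.exists F
    obtain ⟨f, hpp, hf⟩ := FiniteField.card F p
    have : Fact p.Prime := ⟨hpp⟩
    have hadd : (z + z⁻¹) ^ Fintype.card F = z ^ Fintype.card F + (z ^ Fintype.card F)⁻¹ := by
      rw [hf, add_pow_char_pow, inv_pow]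
    rw [hadd]
    rcases h with h | h
    · have : z ^ Fintype.card F = z := by
        rw [← Nat.sub_add_cancel hq.le, pow_succ, (hz.pow_eq_one_iff_dvd _).2 h, one_mul]
      rw [this]
    · have : z ^ Fintype.card F = z⁻¹ := by
        refine eq_inv_of_mul_eq_one_left ?_
        rw [← pow_succ, (hz.pow_eq_one_iff_dvd _).2 h]
      rw [this, inv_inv, add_comm]
  obtain ⟨t, ht⟩ := mem_range_of_pow_card hfix
  refine ⟨t, fun h4 => hz2 ?_, by rw [orderOf_comp hz0 hz2 ht, hz.eq_orderOf]⟩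
  have h5 := congrArg (algebraMap F (AlgebraicClosure F)) h4
  rw [map_pow, ht, map_ofNat] at h5
  have h6 : (z ^ 2 - 1) ^ 2 = 0 := by
    have : z * z⁻¹ = 1 := mul_inv_cancel₀ hz0
    linear_combination z ^ 2 * h5 - (2 * z ^ 2 + z * z⁻¹ + 1) * this
  exact sub_eq_zero.1 (pow_eq_zero_iff two_ne_zero |>.1 h6)

theorem exists_inverting [Fintype F] (hF : Odd (Fintype.card F)) {t : F} (ht : t ^ 2 ≠ 4) :
    ∃ y : SL(2, F), (y * y : SL(2, F)).1 = -1 ∧ comp t * y = y * (comp t)⁻¹ := by
  have h2 := two_ne_zero_of_odd hF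
  obtain ⟨u, c, h⟩ := FiniteField.exists_root_sum_quadratic (R := F)
    (f := Polynomial.X ^ 2 + Polynomial.C 4) (g := Polynomial.C (4 - t ^ 2) * Polynomial.X ^ 2)
    (Polynomial.degree_X_pow_add_C (by norm_num) _)
    (Polynomial.degree_C_mul_X_pow 2 (sub_ne_zero.2 ht.symm)) (Nat.odd_iff.1 hF)
  simp at h
  obtain ⟨a, ha⟩ : ∃ a : F, a ^ 2 + t * a * c + c ^ 2 = -1 := by
    refine ⟨(u - t * c) / 2, ?_⟩
    have h4 : (4 : F) ≠ 0 := by
      rw [show (4 : F) = 2 * 2 by norm_num]; exact mul_ne_zero h2 h2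
    field_simp
    linear_combination h
  refine ⟨mk2 a (t * a + c) c (-a) (by linear_combination -ha), ?_, ?_⟩
  · ext i j; fin_cases i <;> fin_cases j <;> simp [Matrix.mul_apply, Fin.sum_univ_two] <;>
      first | ring1 | linear_combination ha
  · rw [eq_mul_inv_iff_mul_eq]
    ext i j; fin_cases i <;> fin_cases j <;> simp [comp, Matrix.mul_apply, Fin.sum_univ_two] <;>
      ring

theorem card_SL_two' [Fintype F] :
    Nat.card SL(2, F) = Fintype.card F * ((Fintype.card F - 1) * (Fintype.card F + 1)) := by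
  rw [CA.Lin.card_SL_two, ← Nat.sq_sub_sq (Fintype.card F) 1 |>.trans (mul_comm _ _), one_pow]

theorem sylow_isCyclic [Fintype F] (p : ℕ) [Fact p.Prime] [CharP F p] (r : ℕ) [hr : Fact r.Prime]
    (hr2 : r ≠ 2) (hrp : r ≠ p) (R : Sylow r SL(2, F)) : IsCyclic R := by
  obtain ⟨k, hk⟩ := IsPGroup.iff_card.1 R.isPGroup'
  rcases Nat.eq_zero_or_pos k with rfl | hk0
  · have : Subsingleton R := (Nat.card_eq_one_iff_unique.1 (by simpa using hk)).1
    infer_instance
  have hq : 1 < Fintype.card F := Fintype.one_lt_card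
  have hdvd : r ^ k ∣ Fintype.card F * ((Fintype.card F - 1) * (Fintype.card F + 1)) := by
    rw [← card_SL_two', ← hk]; exact Subgroup.card_subgroup_dvd_card _
  have hrq : (r ^ k).Coprime (Fintype.card F) := by
    obtain ⟨f, hpp, hf⟩ := FiniteField.card F p
    rw [hf]
    exact Nat.coprime_pow_primes _ _ hr.out hpp hrp
  have hdvd2 := hrq.dvd_of_dvd_mul_left hdvd
  have hor : r ^ k ∣ Fintype.card F - 1 ∨ r ^ k ∣ Fintype.card F + 1 := by
    by_cases h1 : r ∣ Fintype.card F - 1
    · left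
      refine Nat.Coprime.dvd_of_dvd_mul_right ?_ hdvd2
      refine Nat.Coprime.pow_left _ ((Nat.Prime.coprime_iff_not_dvd hr.out).2 fun h2 => hr2 ?_)
      have := (Nat.dvd_sub_iff_left (by omega) h1).2 h2
      rw [show Fintype.card F + 1 - (Fintype.card F - 1) = 2 by omega] at this
      exact (Nat.prime_dvd_prime_iff_eq hr.out Nat.prime_two).1 this
    · right
      exact Nat.Coprime.dvd_of_dvd_mul_left
        (Nat.Coprime.pow_left _ ((Nat.Prime.coprime_iff_not_dvd hr.out).2 h1)) hdvd2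
  have h3 : 2 < r ^ k := by
    have := hr.out.two_le
    calc 2 < r := by omega
      _ = r ^ 1 := (pow_one r).symm
      _ ≤ r ^ k := Nat.pow_le_pow_right (by omega) hk0
  obtain ⟨t, -, ht⟩ := exists_comp_orderOf h3 hor
  let Q : Sylow r SL(2, F) := Sylow.ofCard (Subgroup.zpowers (comp t)) (by
    rw [Nat.card_zpowers, ht, ← hk, Sylow.card_eq_multiplicity])
  have : IsCyclic Q := inferInstanceAs (IsCyclic (Subgroup.zpowers (comp t)))
  exact isCyclic_of_surjective _ (Sylow.equiv Q R).surjective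

theorem two_pow_dvd_aux {q m : ℕ} (hq : Odd q) (h : 2 ^ (m + 1) ∣ (q - 1) * (q + 1)) :
    2 ^ m ∣ q - 1 ∨ 2 ^ m ∣ q + 1 := by
  obtain ⟨a, rfl⟩ := hq
  rcases Nat.eq_zero_or_pos m with rfl | hm
  · simp
  obtain ⟨m, rfl⟩ : ∃ m', m = m' + 1 := ⟨m - 1, by omega⟩
  rw [show (2 * a + 1 - 1) * (2 * a + 1 + 1) = a * (a + 1) * 2 * 2 by
    simp only [Nat.add_sub_cancel]; ring, pow_succ, pow_succ] at h
  have h1 := Nat.dvd_of_mul_dvd_mul_right (by norm_num)
    (Nat.dvd_of_mul_dvd_mul_right (by norm_num) h)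
  rcases Nat.even_or_odd a with ha | ha
  · left
    have : (2 ^ m).Coprime (a + 1) := Nat.Coprime.pow_left _ (by
      rw [Nat.coprime_two_left]; exact ha.add_one)
    rw [Nat.add_sub_cancel, pow_succ']
    exact Nat.mul_dvd_mul_left _ (this.dvd_of_dvd_mul_right h1)
  · right
    have : (2 ^ m).Coprime a := Nat.Coprime.pow_left _ (by rw [Nat.coprime_two_left]; exact ha)
    rw [show 2 * a + 1 + 1 = 2 * (a + 1) by ring, pow_succ']
    exact Nat.mul_dvd_mul_left _ (this.dvd_of_dvd_mul_left h1)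

theorem sylow_two_quaternion [Fintype F] (hF : Odd (Fintype.card F)) (P : Sylow 2 SL(2, F)) :
    ∃ k : ℕ, 1 ≤ k ∧ Nonempty (P ≃* QuaternionGroup (2 ^ k)) := by
  obtain ⟨m, hm⟩ := IsPGroup.iff_card.1 P.isPGroup'
  have h8 : 2 ^ 3 ∣ 2 ^ m := by
    rw [← hm]
    apply P.pow_dvd_card_of_pow_dvd_card
    rw [card_SL_two']
    apply Dvd.dvd.mul_left
    obtain ⟨a, ha⟩ := hF
    rw [ha, show (2 * a + 1 - 1) * (2 * a + 1 + 1) = 4 * (a * (a + 1)) by
      simp only [Nat.add_sub_cancel]; ring]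
    exact Nat.mul_dvd_mul_left 4 (Nat.even_mul_succ_self a).two_dvd
  have hm3 := (Nat.pow_dvd_pow_iff_le_right (by norm_num)).1 h8
  obtain ⟨k, rfl⟩ : ∃ k, m = k + 2 := ⟨m - 2, by omega⟩
  have hdvd : 2 ^ (k + 2) ∣ Fintype.card F * ((Fintype.card F - 1) * (Fintype.card F + 1)) := by
    rw [← card_SL_two', ← hm]; exact Subgroup.card_subgroup_dvd_card _
  have hcop : (2 ^ (k + 2)).Coprime (Fintype.card F) :=
    Nat.Coprime.pow_left _ (by rw [Nat.coprime_two_left]; exact hF)
  have hk2 : 2 ≤ 2 ^ k := by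
    calc 2 = 2 ^ 1 := rfl
      _ ≤ 2 ^ k := Nat.pow_le_pow_right (by norm_num) (by omega)
  obtain ⟨t, ht4, ht⟩ := exists_comp_orderOf (n := 2 ^ (k + 1)) (by rw [pow_succ]; omega)
    (two_pow_dvd_aux hF (hcop.dvd_of_dvd_mul_left hdvd))
  obtain ⟨y, hy, hxy⟩ := exists_inverting hF ht4
  rw [pow_succ'] at ht
  have hx : comp t ^ (2 * 2 ^ k) = 1 := ht ▸ pow_orderOf_eq_one _
  have hy' : y * y = comp t ^ 2 ^ k := by
    apply Subtype.ext
    rw [hy, eq_neg_one_of_involution (two_ne_zero_of_odd hF) (comp t ^ 2 ^ k)]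
    · exact pow_ne_one_of_lt_orderOf (by omega) (by omega)
    · rw [← pow_add, ← two_mul, hx]
  have hinj := CA.Quat.lift_injective (comp t) y hx hy' hxy ht hk2
  let Q : Sylow 2 SL(2, F) := Sylow.ofCard (CA.Quat.lift (comp t) y hx hy' hxy).range (by
    rw [← Nat.card_congr (MonoidHom.ofInjective hinj).toEquiv, ← Sylow.card_eq_multiplicity P, hm,
      Nat.card_eq_fintype_card, QuaternionGroup.card]
    ring)
  exact ⟨k, by omega, ⟨(Sylow.equiv P Q).trans (MonoidHom.ofInjective hinj).symm⟩⟩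

end CA.SL2
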