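import Cfsg.Agent.Lib.Classical.SL2

/-! Dickson's theorem: a subgroup of `SL₂(q)`, `q` odd, with a non-normal Sylow `p`-subgroup
contains `SL₂(p)`. -/

set_option autoImplicit false

open Matrix Matrix.SpecialLinearGroup
open scoped MatrixGroups LinearAlgebra.Projectivization Pointwise

namespace CA.SL2

variable {F : Type*} [Field F]

/-- The trace of an element of `SL₂`. -/
def tr (g : SL(2, F)) : F := g 0 0 + g 1 1

theorem det_eq (g : SL(2, F)) : g 0 0 * g 1 1 - g 0 1 * g 1 0 = 1 := by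
  have := g.det_coe
  rwa [det_fin_two] at this

theorem mul_apply' (g h : SL(2, F)) (i j : Fin 2) :
    (g * h) i j = g i 0 * h 0 j + g i 1 * h 1 j := by
  simp [Matrix.mul_apply, Fin.sum_univ_two]

theorem tr_mul_comm (g h : SL(2, F)) : tr (g * h) = tr (h * g) := by
  simp only [tr, mul_apply']; ring

theorem tr_conj (g h : SL(2, F)) : tr (g * h * g⁻¹) = tr h := by
  rw [tr_mul_comm, inv_mul_cancel_left]

theorem tr_neg (g : SL(2, F)) : tr (-g) = - tr g := by
  simp [tr]; ring

theorem tr_up (a : F) : tr (up a) = 2 := by simp [tr, up_coe]; norm_num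

theorem tr_up_mul (a : F) (g : SL(2, F)) : tr (up a * g) = tr g + a * g 1 0 := by
  simp [tr, mul_apply', up_coe]; ring

theorem tr_sandwich (w t : SL(2, F)) : tr (w * (t * w)) = tr w * tr (t * w) - tr t := by
  have := det_eq w
  simp only [tr, mul_apply']
  linear_combination (-(t 0 0 + t 1 1)) * this

theorem conj_up_apply (h : SL(2, F)) (a : F) : (h * up a * h⁻¹) 1 0 = - (h 1 0 ^ 2 * a) := by
  rw [mul_apply', mul_apply', mul_apply', SL2_inv_expl]
  simp [up_coe]; ring

theorem conj_up_of_upper {n : SL(2, F)} (hn : n 1 0 = 0) (a : F) :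
    n * up a * n⁻¹ = up (n 0 0 ^ 2 * a) := by
  have hd := det_eq n
  rw [hn] at hd
  rw [mul_inv_eq_iff_eq_mul]
  ext i j
  fin_cases i <;> fin_cases j <;> simp [mul_apply', up_coe, hn]
  linear_combination (-(a * n 0 0)) * hd

theorem up_add (a b : F) : up (a + b) = up a * up b := transvection_add _ a b

theorem up_neg (a : F) : up (-a) = (up a)⁻¹ := (transvection_inv _ a).symm

theorem up_pow (a : F) (k : ℕ) : up a ^ k = up (k * a) := by
  induction k with
  | zero => simp
  | succ k ih => rw [pow_succ, ih, ← up_add]; congr 1; push_cast; ring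

theorem lo_pow (a : F) (k : ℕ) : lo a ^ k = lo (k * a) := by
  induction k with
  | zero => simp
  | succ k ih => rw [pow_succ, ih, ← transvection_add]; congr 1; push_cast; ring

theorem eq_pm_up {n : SL(2, F)} (hn : n 1 0 = 0) (h : n 0 0 ^ 2 = 1) :
    ∃ a, n = up a ∨ n = - up a := by
  have hd := det_eq n
  rw [hn] at hd
  rcases mul_self_eq_one_iff.1 (by rwa [pow_two] at h) with h1 | h1
  · exact ⟨_, Or.inl (eq_up_of hn (by rw [h1] at hd; linear_combination hd))⟩
  · refine ⟨(-n) 0 1, Or.inr ?_⟩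
    rw [← eq_up_of (A := -n) (by simp [hn]) (by rw [h1] at hd; simp; linear_combination hd), neg_neg]

/-- Two unipotent elements whose product has trace `-2` or `4`. -/
def Good (H : Subgroup SL(2, F)) : Prop :=
  ∃ u ∈ H, ∃ v ∈ H, tr u = 2 ∧ tr v = 2 ∧ (tr (u * v) = -2 ∨ tr (u * v) = 4)

theorem good_of_upper [Finite F] (h2 : (2 : F) ≠ 0) (H : Subgroup SL(2, F)) (hneg : -1 ∈ H)
    {b0 : F} (hb0 : b0 ≠ 0) (hb : up b0 ∈ H) {h0 : SL(2, F)} (hh0 : h0 ∈ H) (hh0' : h0 1 0 ≠ 0) :
    Good H := by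
  classical
  have := Fintype.ofFinite F
  by_contra hbad
  let N : Finset SL(2, F) := {g | g ∈ H ∧ g 1 0 = 0}
  let M : Finset SL(2, F) := {g | g ∈ H ∧ g 1 0 ≠ 0}
  let X : Finset SL(2, F) := {g | g ∈ H ∧ g 1 0 ≠ 0 ∧ tr g = 2}
  let A : Finset F := {a | up a ∈ H}
  let S : Finset SL(2, F) := {1, -1}
  have hnegH : ∀ g ∈ H, -g ∈ H := fun g hg => by simpa using mul_mem hneg hg
  have hS : S.card = 2 := Finset.card_pair (by
    intro h
    have := congrArg (fun g : SL(2, F) => g 0 0) h
    simp at this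
    exact h2 (by linear_combination this))
  have hA0 : (0 : F) ∈ A := by simp [A]
  have hbA : b0 ∈ A.erase 0 := by simp [A, hb0, hb]
  have hbA' : -b0 ∈ A.erase 0 := by simp [A, hb0, up_neg, hb]
  obtain ⟨r, hr⟩ : ∃ r, A.card = r + 2 := by
    have h1 := Finset.card_pos.2 ⟨_, hbA⟩
    rw [Finset.card_erase_of_mem hA0] at h1
    exact ⟨A.card - 2, by omega⟩
  have hAe : (A.erase 0).card = r + 1 := by rw [Finset.card_erase_of_mem hA0, hr]; rfl
  have hM : 0 < M.card := Finset.card_pos.2 ⟨h0, by simp [M, hh0, hh0']⟩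
  -- first count
  have c1 : M.card * (r + 1) ≤ N.card * X.card := by
    rw [← hAe, ← Finset.card_product]
    refine Finset.card_le_mul_card_image_of_maps_to
      (f := fun x : SL(2, F) × F => x.1 * up x.2 * x.1⁻¹) ?_ _ ?_
    · rintro ⟨h, a⟩ hx
      simp only [Finset.mem_product, M, A, Finset.mem_filter, Finset.mem_univ, true_and,
        Finset.mem_erase] at hx
      simp only [X, Finset.mem_filter, Finset.mem_univ, true_and]
      refine ⟨mul_mem (mul_mem hx.1.1 hx.2.2) (inv_mem hx.1.1), ?_, by rw [tr_conj, tr_up]⟩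
      rw [conj_up_apply]
      exact neg_ne_zero.2 (mul_ne_zero (pow_ne_zero _ hx.1.2) hx.2.1)
    · intro w _
      rcases Finset.eq_empty_or_nonempty
        {x ∈ M ×ˢ A.erase 0 | x.1 * up x.2 * x.1⁻¹ = w} with he | ⟨⟨h1, a1⟩, hx1⟩
      · rw [he]; simp
      simp only [Finset.mem_product, M, A, Finset.mem_filter, Finset.mem_univ, true_and,
        Finset.mem_erase] at hx1
      refine Finset.card_le_card_of_injOn (fun x => h1⁻¹ * x.1) ?_ ?_
      · rintro ⟨h, a⟩ hx
        simp only [Finset.coe_filter, Finset.mem_product, M, A, Finset.mem_filter, Finset.mem_univ,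
          true_and, Finset.mem_erase, Set.mem_ofPred_eq] at hx
        simp only [N, Finset.coe_filter, Finset.mem_univ, true_and, Set.mem_ofPred_eq]
        refine ⟨mul_mem (inv_mem hx1.1.1.1) hx.1.1.1, ?_⟩
        have e : h1⁻¹ * h * up a * (h1⁻¹ * h)⁻¹ = up a1 := by
          calc _ = h1⁻¹ * (h * up a * h⁻¹) * h1 := by group
            _ = _ := by rw [hx.2, ← hx1.2]; group
        have e2 := conj_up_apply (h1⁻¹ * h) a
        rw [e] at e2
        simpa [up_coe, hx.1.2.1] using e2
      · rintro ⟨h, a⟩ hx ⟨h', a'⟩ hx' e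
        simp only [Finset.coe_filter, Set.mem_ofPred_eq] at hx hx'
        simp only [mul_right_inj] at e
        subst e
        have e2 := hx.2.trans hx'.2.symm
        simp only [mul_left_inj, mul_right_inj] at e2
        rw [up_injective e2]
  -- second count
  let Φ : SL(2, F) × F × SL(2, F) → SL(2, F) := fun x => x.1 * up x.2.1 * x.2.2
  have hΦmaps : ∀ x ∈ S ×ˢ A ×ˢ X, Φ x ∈ M := by
    rintro ⟨s, a, w⟩ hx
    simp only [Finset.mem_product, S, X, A, Finset.mem_filter, Finset.mem_univ, true_and,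
      Finset.mem_insert, Finset.mem_singleton] at hx
    simp only [M, Φ, Finset.mem_filter, Finset.mem_univ, true_and]
    obtain ⟨hs, ha, hw, hw1, -⟩ := hx
    rcases hs with rfl | rfl
    · exact ⟨by simpa using mul_mem ha hw, by simpa [mul_apply', up_coe] using hw1⟩
    · exact ⟨mul_mem (mul_mem hneg ha) hw, by
        rw [mul_apply', mul_apply', mul_apply']; simpa [up_coe] using hw1⟩
  have hΦinj : Set.InjOn Φ (S ×ˢ A ×ˢ X : Finset _) := by
    rintro ⟨s, a, w⟩ hx ⟨s', a', w'⟩ hx' e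
    simp only [Finset.coe_product, Set.mem_prod, Finset.mem_coe, S, X, A, Finset.mem_filter,
      Finset.mem_univ, true_and, Finset.mem_insert, Finset.mem_singleton] at hx hx'
    obtain ⟨hs, ha, hw, hw1, hwt⟩ := hx
    obtain ⟨hs', ha', hw', hw1', hwt'⟩ := hx'
    simp only [Φ] at e
    have same : up a * w = up a' * w' → a = a' ∧ w = w' := by
      intro e1
      have e2 : w = up (-a + a') * w' := by rw [up_add, up_neg, mul_assoc, ← e1]; group
      have e3 := congrArg tr e2
      rw [tr_up_mul, hwt, hwt', left_eq_add, mul_eq_zero] at e3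
      have e4 : a = a' := by linear_combination -(e3.resolve_right hw1')
      subst e4
      exact ⟨rfl, mul_left_cancel e1⟩
    have diff : ¬ (up a * w = - (up a' * w')) := by
      intro e1
      apply hbad
      have e2 : up (-a + a') * w' = - w := by
        rw [up_add, up_neg, mul_assoc, ← neg_neg (up a' * w'), ← e1, mul_neg]; congr 1; group
      refine ⟨up (-a + a'), ?_, w', hw', tr_up _, hwt', Or.inl (by rw [e2, tr_neg, hwt])⟩
      rw [up_add, up_neg]; exact mul_mem (inv_mem ha) ha'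
    rcases hs with rfl | rfl <;> rcases hs' with rfl | rfl
    · obtain ⟨rfl, rfl⟩ := same (by simpa using e); rfl
    · exact absurd (by simpa using e) diff
    · exact absurd (by simpa [neg_eq_iff_eq_neg] using e) diff
    · obtain ⟨rfl, rfl⟩ := same (by simpa using e); rfl
  have hcard : (S ×ˢ A ×ˢ X).card = 2 * ((r + 2) * X.card) := by
    rw [Finset.card_product, Finset.card_product, hS, hr]
  have c2 : 2 * ((r + 2) * X.card) ≤ M.card := by
    rw [← hcard]; exact Finset.card_le_card_of_injOn Φ hΦmaps hΦinj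
  -- third count
  have c3 : ∀ T : Finset F, (∀ n ∈ N, n 0 0 ^ 2 * b0 ∈ T) → N.card ≤ 2 * (r + 2) * T.card := by
    intro T hT
    refine Finset.card_le_mul_card_image_of_maps_to (f := fun n : SL(2, F) => n 0 0 ^ 2 * b0) hT _ ?_
    intro c _
    rcases Finset.eq_empty_or_nonempty {n ∈ N | n 0 0 ^ 2 * b0 = c} with he | ⟨n1, hn1⟩
    · rw [he]; simp
    simp only [N, Finset.mem_filter, Finset.mem_univ, true_and] at hn1
    rw [show 2 * (r + 2) = (S ×ˢ A).card by rw [Finset.card_product, hS, hr]]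
    refine le_trans (Finset.card_le_card ?_)
      (Finset.card_image_le (f := fun x : SL(2, F) × F => n1 * (x.1 * up x.2)))
    intro n hn
    simp only [N, Finset.mem_filter, Finset.mem_univ, true_and] at hn
    have hd := det_eq n1
    rw [hn1.1.2] at hd
    have hm : n1⁻¹ * n ∈ H := mul_mem (inv_mem hn1.1.1) hn.1.1
    have e0 : n 0 0 ^ 2 = n1 0 0 ^ 2 := mul_right_cancel₀ hb0 (hn.2.trans hn1.2.symm)
    obtain ⟨a, ha⟩ := eq_pm_up (n := n1⁻¹ * n)
      (by rw [mul_apply', SL2_inv_expl]; simp [hn1.1.2, hn.1.2])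
      (by
        rw [mul_apply', SL2_inv_expl, hn.1.2, mul_zero, add_zero]
        change (n1 1 1 * n 0 0) ^ 2 = 1
        linear_combination n1 1 1 ^ 2 * e0 + (n1 0 0 * n1 1 1 + 1) * hd)
    simp only [Finset.mem_image, Finset.mem_product, S, A, Finset.mem_filter, Finset.mem_univ,
      true_and, Finset.mem_insert, Finset.mem_singleton, Prod.exists]
    rcases ha with ha | ha
    · exact ⟨1, a, ⟨Or.inl rfl, ha ▸ hm⟩, by rw [one_mul, ← ha]; group⟩
    · refine ⟨-1, a, ⟨Or.inr rfl, ?_⟩, by rw [neg_one_mul, ← ha]; group⟩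
      simpa [ha] using hnegH _ hm
  have hNA : ∀ n ∈ N, n 0 0 ^ 2 * b0 ∈ A.erase 0 := by
    intro n hn
    simp only [N, Finset.mem_filter, Finset.mem_univ, true_and] at hn
    have hd := det_eq n
    rw [hn.2] at hd
    simp only [A, Finset.mem_erase, Finset.mem_filter, Finset.mem_univ, true_and]
    refine ⟨mul_ne_zero (pow_ne_zero _ fun h => by simp [h] at hd) hb0, ?_⟩
    rw [← conj_up_of_upper hn.2]
    exact mul_mem (mul_mem hn.1 hb) (inv_mem hn.1)
  have c4 := c3 _ hNA
  rw [hAe] at c4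
  have c5 : 2 * (r + 2) * (r + 1) ≤ N.card := by
    apply Nat.le_of_mul_le_mul_right _ hM
    calc 2 * (r + 2) * (r + 1) * M.card = 2 * (r + 2) * (M.card * (r + 1)) := by ring
      _ ≤ 2 * (r + 2) * (N.card * X.card) := Nat.mul_le_mul_left _ c1
      _ = N.card * (2 * ((r + 2) * X.card)) := by ring
      _ ≤ N.card * M.card := Nat.mul_le_mul_left _ c2
  obtain ⟨t, htN, ht⟩ : ∃ t ∈ N, t 0 0 ^ 2 * b0 = -b0 := by
    by_contra hcon
    push Not at hcon
    have c6 := c3 ((A.erase 0).erase (-b0)) fun n hn => Finset.mem_erase.2 ⟨hcon n hn, hNA n hn⟩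
    rw [Finset.card_erase_of_mem hbA', hAe, Nat.add_sub_cancel] at c6
    nlinarith
  have c7 : M.card ≤ (S ×ˢ A ×ˢ X).card := by
    rw [hcard]
    apply Nat.le_of_mul_le_mul_right _ (Nat.succ_pos r)
    calc M.card * (r + 1) ≤ N.card * X.card := c1
      _ ≤ 2 * (r + 2) * (r + 1) * X.card := Nat.mul_le_mul_right _ c4
      _ = _ := by rw [Nat.succ_eq_add_one]; ring
  have hX : 0 < X.card := by
    rw [hcard] at c7
    by_contra h
    have : X.card = 0 := by omega
    rw [this] at c7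
    omega
  obtain ⟨w, hw⟩ := Finset.card_pos.1 hX
  simp only [N, Finset.mem_filter, Finset.mem_univ, true_and] at htN
  simp only [X, Finset.mem_filter, Finset.mem_univ, true_and] at hw
  have hd := det_eq t
  rw [htN.2] at hd
  have ht2 : t 0 0 ^ 2 = -1 := mul_right_cancel₀ hb0 (by rw [ht]; ring)
  have htt : tr t = 0 := by
    rw [tr]; linear_combination (-t 0 0) * hd + t 1 1 * ht2
  have htw : t * w ∈ M := by
    simp only [M, Finset.mem_filter, Finset.mem_univ, true_and]
    refine ⟨mul_mem htN.1 hw.1, ?_⟩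
    rw [mul_apply', htN.2, zero_mul, zero_add]
    exact mul_ne_zero (fun h => by simp [h] at hd) hw.2.1
  obtain ⟨⟨s, a, w'⟩, hx, e⟩ := Finset.surj_on_of_inj_on_of_card_le (fun x _ => Φ x) hΦmaps
    (fun x y hx hy h => hΦinj hx hy h) c7 _ htw
  simp only [Finset.mem_product, S, X, A, Finset.mem_filter, Finset.mem_univ, true_and,
    Finset.mem_insert, Finset.mem_singleton] at hx
  obtain ⟨hs, ha, hw', -, hwt'⟩ := hx
  simp only [Φ] at e
  have ht' : tr (up (-a) * t) = 0 := by rw [tr_up_mul, htt, htN.2]; ring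
  apply hbad
  refine ⟨w, hw.1, w', hw', hw.2.2, hwt', Or.inr ?_⟩
  have key := tr_sandwich w (up (-a) * t)
  rw [ht', hw.2.2, mul_assoc (up (-a)), e, up_neg] at key
  rcases hs with rfl | rfl
  · simp only [one_mul, inv_mul_cancel_left] at key
    rw [key, hwt']; norm_num
  · simp only [neg_mul, one_mul, mul_neg, inv_mul_cancel_left, tr_neg] at key
    rw [hwt'] at key
    linear_combination -key

theorem pow_coe_of_tr {u : SL(2, F)} (hu : tr u = 2) (k : ℕ) :
    (u ^ k : SL(2, F)).1 = 1 + (k : F) • (u.1 - 1) := by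
  have hd := det_eq u
  rw [tr] at hu
  induction k with
  | zero => simp
  | succ k ih =>
    rw [pow_succ, coe_mul, ih]
    ext i j
    fin_cases i <;> fin_cases j <;> simp [Matrix.mul_apply, Fin.sum_univ_two]
    · linear_combination (-(k : F)) * hd + (k : F) * u 0 0 * hu
    · linear_combination (k : F) * u 0 1 * hu
    · linear_combination (k : F) * u 1 0 * hu
    · linear_combination (-(k : F)) * hd + (k : F) * u 1 1 * hu

theorem pow_char_of_tr (p : ℕ) [CharP F p] {u : SL(2, F)} (hu : tr u = 2) : u ^ p = 1 := by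
  apply Subtype.ext
  rw [pow_coe_of_tr hu, CharP.cast_eq_zero, zero_smul, add_zero, coe_one]

theorem exists_US_of_pow [Fintype F] (p : ℕ) [hp : Fact p.Prime] [CharP F p] {u : SL(2, F)}
    (hu : u ^ p = 1) : ∃ x, u ∈ US x := by
  have h : IsPGroup p (Subgroup.zpowers u) := by
    refine IsPGroup.of_card_dvd_pow (n := 1) ?_
    rw [Nat.card_zpowers, pow_one]
    exact orderOf_dvd_of_pow_eq_one hu
  obtain ⟨P, hP⟩ := h.exists_le_sylow
  obtain ⟨x, hx⟩ := exists_US p P
  exact ⟨x, hx ▸ hP (Subgroup.mem_zpowers u)⟩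

theorem mem_US_e1 {A : SL(2, F)} (h : A ∈ US (e1 F)) : ∃ b, A = lo b := by
  rw [US, e1, Projectivization.submodule_mk, mem_lineStab_iff] at h
  obtain ⟨a, ha⟩ := Submodule.mem_span_singleton.1 (h (Pi.single 0 1))
  obtain ⟨b, hb⟩ := Submodule.mem_span_singleton.1 (h (Pi.single 1 1))
  have h1 := congrFun ha 0
  have h2 := congrFun hb 0
  simp [Matrix.SpecialLinearGroup.smul_def] at h1 h2
  have hd := det_eq A
  have h3 : A 0 0 = 1 := by linear_combination -h1
  have h4 : A 1 1 = 1 := by rw [h3, ← h2] at hd; linear_combination hd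
  refine ⟨A 1 0, Subtype.ext ?_⟩
  rw [lo_coe]
  ext i j; fin_cases i <;> fin_cases j <;> simp [h3, h4, ← h2]

theorem tr_of_mem_US {x : ℙ F (Fin 2 → F)} {u : SL(2, F)} (hu : u ∈ US x) : tr u = 2 := by
  obtain ⟨g, rfl⟩ := exists_smul_e0 x
  rw [US_smul, Subgroup.mem_smul_pointwise_iff_exists] at hu
  obtain ⟨A, hA, rfl⟩ := hu
  obtain ⟨b, rfl⟩ := mem_US_e0.1 hA
  exact (tr_conj _ _).trans (tr_up b)

/-- Conjugation by a diagonal matrix of `GL₂`. -/
def scaleHom (a : F) (ha : a ≠ 0) : SL(2, F) →* SL(2, F) :=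
  MonoidHom.mk' (fun g => mk2 (g 0 0) (a * g 0 1) (a⁻¹ * g 1 0) (g 1 1) (by
    have := det_eq g
    field_simp; exact this)) (by
    intro g h
    ext i j
    fin_cases i <;> fin_cases j <;> simp [Matrix.mul_apply, Fin.sum_univ_two] <;> field_simp)

theorem scaleHom_injective (a : F) (ha : a ≠ 0) : Function.Injective (scaleHom a ha) := by
  intro g h e
  have h00 := congrArg (fun g : SL(2, F) => g 0 0) e
  have h01 := congrArg (fun g : SL(2, F) => g 0 1) e
  have h10 := congrArg (fun g : SL(2, F) => g 1 0) e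
  have h11 := congrArg (fun g : SL(2, F) => g 1 1) e
  simp [scaleHom, ha] at h00 h01 h10 h11
  ext i j; fin_cases i <;> fin_cases j <;> simp [h00, h01, h10, h11]

theorem exists_SL2p_of_good [Fintype F] (p : ℕ) [hp : Fact p.Prime] [CharP F p] (h2 : (2 : F) ≠ 0)
    {H : Subgroup SL(2, F)} (hH : Good H) :
    ∃ K : Subgroup SL(2, F), K ≤ H ∧ Nonempty (K ≃* SL(2, ZMod p)) := by
  obtain ⟨u, hu, v, hv, htu, htv, huv⟩ := hH
  let ι : ZMod p →+* F := ZMod.castHom (dvd_refl p) F
  obtain ⟨c, hc0, hc⟩ : ∃ c : ZMod p, ι c ≠ 0 ∧ tr (u * v) = 2 + ι c := by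
    rcases huv with h | h
    · refine ⟨-(2 * 2), ?_, ?_⟩
      · rw [map_neg, map_mul, map_ofNat]; exact neg_ne_zero.2 (mul_ne_zero h2 h2)
      · rw [h, map_neg, map_mul, map_ofNat]; ring
    · exact ⟨2, by rw [map_ofNat]; exact h2, by rw [h, map_ofNat]; ring⟩
  obtain ⟨x, hx⟩ := exists_US_of_pow p (pow_char_of_tr p htu)
  obtain ⟨y, hy⟩ := exists_US_of_pow p (pow_char_of_tr p htv)
  have hxy : x ≠ y := by
    rintro rfl
    rw [tr_of_mem_US (mul_mem hx hy), left_eq_add] at hc
    exact hc0 hc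
  obtain ⟨g, rfl, rfl⟩ := MulAction.is_two_pretransitive_iff.1
    (inferInstance : MulAction.IsMultiplyPretransitive SL(2, F) (ℙ F (Fin 2 → F)) 2) e0_ne_e1 hxy
  rw [US_smul, Subgroup.mem_smul_pointwise_iff_exists] at hx hy
  obtain ⟨A, hA, rfl⟩ := hx
  obtain ⟨B, hB, rfl⟩ := hy
  obtain ⟨a, rfl⟩ := mem_US_e0.1 hA
  obtain ⟨b, rfl⟩ := mem_US_e1 hB
  rw [← smul_mul', MulAut.smul_def, MulAut.conj_apply, tr_conj, tr_up_mul] at hc
  have hab : a * b = ι c := by
    simp [tr, lo_coe] at hc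
    linear_combination hc
  have ha : a ≠ 0 := by rintro rfl; exact hc0 (by rw [← hab, zero_mul])
  let ψ : SL(2, ZMod p) →* SL(2, F) :=
    (MulAut.conj g).toMonoidHom.comp ((scaleHom a ha).comp (SpecialLinearGroup.map ι))
  have hψ : Function.Injective ψ := by
    refine (MulAut.conj g).injective.comp ((scaleHom_injective a ha).comp ?_)
    intro s t h
    ext i j
    exact ι.injective (congrArg (fun g : SL(2, F) => g i j) h)
  refine ⟨ψ.range, ?_, ⟨(MonoidHom.ofInjective hψ).symm⟩⟩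
  rintro _ ⟨s, rfl⟩
  have hval : ∀ k : ZMod p, ((k.val : ℕ) : F) = ι k := fun k => by
    rw [← map_natCast ι, ZMod.natCast_zmod_val]
  refine SL2.transvection_induction (fun s => ψ s ∈ H) (fun i j hij k => ?_)
    (fun s t hs ht => by rw [map_mul]; exact mul_mem hs ht) s
  have h01 : ψ (transvection zero_ne_one k) = (MulAut.conj g • up a) ^ k.val := by
    rw [← smul_pow', up_pow, hval]
    change MulAut.conj g _ = MulAut.conj g _
    congr 1
    ext i j
    fin_cases i <;> fin_cases j <;> simp [scaleHom, transvection_coe, mul_comm]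
  have h10 : ψ (transvection one_ne_zero k) = (MulAut.conj g • lo b) ^ (k / c).val := by
    rw [← smul_pow', lo_pow, hval, map_div₀, ← hab]
    change MulAut.conj g _ = MulAut.conj g _
    congr 1
    have hb : b ≠ 0 := by rintro rfl; exact hc0 (by rw [← hab, mul_zero])
    ext i j
    fin_cases i <;> fin_cases j <;> simp [scaleHom, transvection_coe]
    field_simp
  fin_cases i
  · obtain rfl : j = 1 := by fin_cases j <;> tauto
    exact h01 ▸ pow_mem hu _
  · obtain rfl : j = 0 := by fin_cases j <;> tauto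
    exact h10 ▸ pow_mem hv _

theorem smul_e0_eq_of {h : SL(2, F)} (h10 : h 1 0 = 0) : h • e0 F = e0 F := by
  rw [e0, Projectivization.smul_mk, Projectivization.mk_eq_mk_iff']
  refine ⟨h 0 0, ?_⟩
  ext i; fin_cases i <;> simp [Matrix.SpecialLinearGroup.smul_def, h10]

theorem good_of_sylow [Fintype F] (p : ℕ) [hp : Fact p.Prime] [CharP F p] (hp2 : p ≠ 2)
    (H : Subgroup SL(2, F)) (hH : 1 < Nat.card (Sylow p H)) : Good H := by
  have h2 : (2 : F) ≠ 0 := Ring.two_ne_zero (by rw [ringChar.eq F p]; exact hp2)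
  obtain ⟨P, Q, hPQ⟩ := (Finite.one_lt_card_iff_nontrivial.1 hH).exists_pair_ne
  obtain ⟨h, rfl⟩ := MulAction.exists_smul_eq H P Q
  obtain ⟨R, hR⟩ := (P.isPGroup'.map H.subtype).exists_le_sylow
  obtain ⟨x, hx⟩ := exists_US p R
  have hP : (US x).subgroupOf H = P := by
    refine P.is_maximal' (hx ▸ R.isPGroup'.comap_subtype) ?_
    rw [← hx]; exact Subgroup.map_le_iff_le_comap.1 hR
  have hhx : (h : SL(2, F)) • x ≠ x := by
    intro e
    apply hPQ
    symm
    rw [Sylow.smul_eq_iff_mem_normalizer, ← Sylow.coe_coe, ← hP, Subgroup.mem_normalizer_iff]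
    intro k
    rw [Subgroup.mem_subgroupOf, Subgroup.mem_subgroupOf]
    conv_rhs => rw [← e, US_smul]
    exact (Subgroup.smul_mem_pointwise_smul_iff (a := MulAut.conj (h : SL(2, F)))).symm
  obtain ⟨u, huP, hu1⟩ : ∃ u ∈ (P : Subgroup H), u ≠ 1 := by
    by_contra hcon
    push Not at hcon
    apply hPQ
    have : (P : Subgroup H) = ⊥ := (Subgroup.eq_bot_iff_forall _).2 hcon
    apply Sylow.ext
    rw [Sylow.coe_subgroup_smul, this, Subgroup.smul_bot]
  obtain ⟨g, rfl⟩ := exists_smul_e0 x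
  rw [← hP, Subgroup.mem_subgroupOf, US_smul, Subgroup.mem_smul_pointwise_iff_exists] at huP
  obtain ⟨A, hA, hAu⟩ := huP
  obtain ⟨b, rfl⟩ := mem_US_e0.1 hA
  have hb : b ≠ 0 := by
    rintro rfl
    exact hu1 (Subtype.ext (by simpa using hAu.symm))
  let H' : Subgroup SL(2, F) :=
    { carrier := {k | g * k * g⁻¹ ∈ H ∨ -(g * k * g⁻¹) ∈ H}
      mul_mem' := by
        intro k l hk hl
        have e : g * (k * l) * g⁻¹ = (g * k * g⁻¹) * (g * l * g⁻¹) := by group
        simp only [Set.mem_ofPred_eq, e] at hk hl ⊢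
        rcases hk with hk | hk <;> rcases hl with hl | hl
        · exact Or.inl (mul_mem hk hl)
        · exact Or.inr (by simpa using mul_mem hk hl)
        · exact Or.inr (by simpa using mul_mem hk hl)
        · exact Or.inl (by simpa using mul_mem hk hl)
      one_mem' := Or.inl (by simp)
      inv_mem' := by
        intro k hk
        have e : g * k⁻¹ * g⁻¹ = (g * k * g⁻¹)⁻¹ := by group
        simp only [Set.mem_ofPred_eq, e] at hk ⊢
        rcases hk with hk | hk
        · exact Or.inl (inv_mem hk)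
        · exact Or.inr (by rw [← inv_neg]; exact inv_mem hk) }
  have hgood := good_of_upper h2 H' (Or.inr (by simp)) hb
    (Or.inl (by rw [show g * up b * g⁻¹ = u from hAu]; exact u.2))
    (h0 := g⁻¹ * h * g) (Or.inl (by simp [mul_assoc])) (fun e => hhx (by
      have := smul_e0_eq_of e
      rwa [mul_smul, mul_smul, inv_smul_eq_iff] at this))
  obtain ⟨u', hu', v', hv', htu, htv, huv⟩ := hgood
  have key : ∀ k ∈ H', tr k = 2 → g * k * g⁻¹ ∈ H := by
    rintro k (hk | hk) ht
    · exact hk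
    · have h1 := pow_char_of_tr p ((tr_conj g k).trans ht)
      have h3 : Even (p + 1) := (hp.out.odd_of_ne_two hp2).add_one
      have h4 := pow_mem hk (p + 1)
      rwa [h3.neg_pow, pow_succ, h1, one_mul] at h4
  refine ⟨_, key u' hu' htu, _, key v' hv' htv, (tr_conj _ _).trans htu, (tr_conj _ _).trans htv, ?_⟩
  rwa [show g * u' * g⁻¹ * (g * v' * g⁻¹) = g * (u' * v') * g⁻¹ by group, tr_conj]

theorem dickson [Fintype F] (p : ℕ) [hp : Fact p.Prime] [CharP F p] (hp2 : p ≠ 2)
    (H : Subgroup SL(2, F)) (hH : 1 < Nat.card (Sylow p H)) :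
    ∃ K : Subgroup SL(2, F), K ≤ H ∧ Nonempty (K ≃* SL(2, ZMod p)) :=
  exists_SL2p_of_good p (Ring.two_ne_zero (by rw [ringChar.eq F p]; exact hp2))
    (good_of_sylow p hp2 H hH)

theorem sylow_two_quaternion_of_dickson [Fintype F] (p : ℕ) [hp : Fact p.Prime] [CharP F p]
    (hp2 : p ≠ 2) (H : Subgroup SL(2, F)) (hH : 1 < Nat.card (Sylow p H)) (S : Sylow 2 H) :
    ∃ k : ℕ, 1 ≤ k ∧ Nonempty ((S : Subgroup H) ≃* QuaternionGroup (2 ^ k)) := by
  have hodd : Odd (Fintype.card F) :=
    Nat.odd_iff.2 (FiniteField.odd_card_of_char_ne_two (by rw [ringChar.eq F p]; exact hp2))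
  obtain ⟨K, hKH, ⟨e⟩⟩ := dickson p hp2 H hH
  obtain ⟨R, hR⟩ := (S.isPGroup'.map H.subtype).exists_le_sylow
  obtain ⟨k, -, ⟨f⟩⟩ := sylow_two_quaternion hodd R
  let φ : (S : Subgroup H) →* (R : Subgroup SL(2, F)) :=
    ((H.subtype.comp (S : Subgroup H).subtype)).codRestrict _ fun s => hR ⟨s, s.2, rfl⟩
  have hφ : Function.Injective φ := fun a b h =>
    Subtype.ext (Subtype.ext (congrArg (fun z : (R : Subgroup SL(2, F)) => z.1) h))
  refine CA.Quat.subgroup_equiv (f.toMonoidHom.comp φ) (f.injective.comp hφ) fun hcyc => ?_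
  let T : Sylow 2 SL(2, ZMod p) := default
  obtain ⟨j, hj, ⟨e'⟩⟩ := sylow_two_quaternion (F := ZMod p)
    (by rw [ZMod.card]; exact hp.out.odd_of_ne_two hp2) T
  let θ : SL(2, ZMod p) →* H := (Subgroup.inclusion hKH).comp e.symm.toMonoidHom
  have hθ : Function.Injective θ := (Subgroup.inclusion_injective hKH).comp e.symm.injective
  obtain ⟨S', hS'⟩ := (T.isPGroup'.map θ).exists_le_sylow
  have hc' : IsCyclic S' := isCyclic_of_surjective _ (Sylow.equiv S S').surjective
  let φ' : (T : Subgroup SL(2, ZMod p)) →* (S' : Subgroup H) :=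
    (θ.comp (T : Subgroup _).subtype).codRestrict _ fun s => hS' ⟨s, s.2, rfl⟩
  have hφ' : Function.Injective φ' := fun a b h => Subtype.ext (hθ (congrArg Subtype.val h))
  have hT : IsCyclic (T : Subgroup SL(2, ZMod p)) := isCyclic_of_injective φ' hφ'
  refine CA.Quat.not_isCyclic (n := 2 ^ j) ?_ (isCyclic_of_surjective _ e'.surjective)
  calc 2 = 2 ^ 1 := rfl
    _ ≤ 2 ^ j := Nat.pow_le_pow_right (by norm_num) hj

end CA.SL2
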