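/-
Chevalley groups of types B and D as projective orthogonal groups: the Lie algebra is realised in
the even Clifford algebra, and a finite certificate identifies the root elements with Siegel
transformations.
-/
import Cfsg.Prelude.Def_Chevalley
import Cfsg.Agent.Lib.Classical.OrthModel

set_option autoImplicit false
set_option linter.unnecessarySeqFocus false

namespace CA.ChevO

open Cfsg.Lie QuadraticMap CliffordAlgebra CA.Orth
open scoped Matrix

/-! ### formal sums -/

section formal

variable {κ F W : Type*} [DecidableEq κ] [Field F] [AddCommGroup W] [Module F W]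

/-- coefficient of a key in a formal sum -/
def coef (k : κ) : List (κ × ℤ) → ℤ
  | [] => 0
  | p :: l => if p.1 = k then p.2 + coef k l else coef k l

/-- equality test for formal sums -/
def same (l l' : List (κ × ℤ)) : Bool := (l ++ l').all fun p => coef p.1 l == coef p.1 l'

variable (F) in
/-- value of a formal sum -/
def ev (f : κ → W) (l : List (κ × ℤ)) : W := (l.map fun p => (p.2 : F) • f p.1).sum

theorem ev_eq_sum (f : κ → W) (S : Finset κ) (l : List (κ × ℤ)) (h : ∀ p ∈ l, p.1 ∈ S) :
    ev F f l = ∑ k ∈ S, (coef k l : F) • f k := by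
  induction l with
  | nil => simp [ev, coef]
  | cons p l ih =>
    have := ih fun q hq => h q (List.mem_cons_of_mem _ hq)
    simp only [ev, List.map_cons, List.sum_cons] at this ⊢
    rw [this, ← Finset.sum_ite_eq_of_mem S p.1 (fun k => (p.2 : F) • f k) (h p List.mem_cons_self),
      ← Finset.sum_add_distrib]
    refine Finset.sum_congr rfl fun k _ => ?_
    simp only [coef]
    split_ifs <;> simp [add_smul]

theorem ev_eq_of_same (f : κ → W) {l l' : List (κ × ℤ)} (h : same l l' = true) :
    ev F f l = ev F f l' := by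
  rw [ev_eq_sum f ((l ++ l').map Prod.fst).toFinset l (fun p hp => by simp; grind),
    ev_eq_sum f ((l ++ l').map Prod.fst).toFinset l' (fun p hp => by simp; grind)]
  refine Finset.sum_congr rfl fun k hk => ?_
  rw [List.mem_toFinset, List.mem_map] at hk
  obtain ⟨p, hp, rfl⟩ := hk
  rw [beq_iff_eq.mp (List.all_eq_true.mp h p hp)]

omit [DecidableEq κ] in
theorem ev_flatMap {α : Type*} (f : κ → W) (g : α → List (κ × ℤ)) (l : List α) :
    ev F f (l.flatMap g) = (l.map fun x => ev F f (g x)).sum := by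
  induction l with
  | nil => simp [ev]
  | cons x l ih => simp only [ev] at ih ⊢; simp [ih]

omit [DecidableEq κ] in
theorem ev_append (f : κ → W) (l l' : List (κ × ℤ)) : ev F f (l ++ l') = ev F f l + ev F f l' := by
  simp [ev]

/-- a monomial, dropped when its coefficient vanishes -/
def mono (k : κ) (c : ℤ) : List (κ × ℤ) := if c = 0 then [] else [(k, c)]

omit [DecidableEq κ] in
theorem ev_mono (f : κ → W) (k : κ) (c : ℤ) : ev F f (mono k c) = (c : F) • f k := by
  unfold mono; split_ifs with h <;> simp [ev, h]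

end formal

/-! ### columns of the root elements -/

variable (D : ChevalleyDatum)

/-- the column of `x_r(t)` as a list of (row, coefficient, degree) -/
def xCol (r : ℕ) : ℕ ⊕ ℕ → List ((ℕ ⊕ ℕ) × ℤ × ℕ)
  | .inl i => [(.inl i, 1, 0), (.inr r, -(D.cartanSR.getD i #[]).getD r 0, 1)]
  | .inr s => if s = r then [(.inr r, 1, 0)] else if s = D.negIdx.getD r 0 then
      (.inr s, 1, 0) :: (.inr r, -1, 2) ::
        (List.range D.rank).map fun i => (.inl i, (D.coroot.getD r #[]).getD i 0, 1)
    else (.inr s, 1, 0) :: (List.range D.nroots).flatMap fun u =>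
      (D.chainCoeff r s u).map fun km => (.inr u, km.2, km.1)

/-- indices as numbers -/
def code : D.Idx → ℕ ⊕ ℕ := Sum.map Fin.val Fin.val

theorem sum_fin_eq {W : Type*} [AddCommMonoid W] (n : ℕ) (f : ℕ → W) :
    ∑ i : Fin n, f i = ((List.range n).map f).sum := by
  rw [← Finset.sum_range]; rfl

theorem sum_xMat {F W : Type*} [Field F] [AddCommGroup W] [Module F W] (φ : ℕ ⊕ ℕ → W)
    (r : Fin D.nroots) (t : F) (col : D.Idx) :
    ∑ row, D.xMat F r t row col • φ (code D row) =
      ((xCol D r (code D col)).map fun p => ((p.2.1 : F) * t ^ p.2.2) • φ p.1).sum := by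
  rw [Fintype.sum_sum_type]
  rcases col with i | s
  · simp [ChevalleyDatum.xMat, xCol, code, ite_smul]
  · by_cases h1 : s = r
    · simp [ChevalleyDatum.xMat, xCol, code, ite_smul, h1]
    have h1' : ¬ (s : ℕ) = r := fun h => h1 (Fin.ext h)
    by_cases h2 : (s : ℕ) = D.negIdx.getD r 0
    · simp only [ChevalleyDatum.xMat, xCol, code, Matrix.of_apply, if_neg h1, if_pos h2,
        if_neg h1', Sum.map_inl, Sum.map_inr, List.map_cons, List.sum_cons, List.map_map]
      rw [sum_fin_eq D.rank fun i => ((((D.coroot.getD r #[]).getD i 0 : ℤ) : F) * t) • φ (.inl i),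
        Finset.sum_eq_add_of_mem s r (Finset.mem_univ _) (Finset.mem_univ _) h1
          (fun c _ hc => by simp [hc.1, hc.2])]
      simp [Ne.symm h1, Function.comp_def]
      abel
    · simp only [ChevalleyDatum.xMat, xCol, code, Matrix.of_apply, if_neg h1, if_neg h2,
        if_neg h1', Sum.map_inl, Sum.map_inr, List.map_cons, List.sum_cons, add_smul,
        Finset.sum_add_distrib, zero_smul, Finset.sum_const_zero, zero_add]
      rw [sum_fin_eq D.nroots fun u =>
        ((D.chainCoeff r s u).map fun km => ((km.2 : ℤ) : F) * t ^ km.1).sum • φ (.inr u)]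
      congr 1
      · simp [ite_smul]
      · generalize List.range D.nroots = L
        induction L with
        | nil => simp
        | cons u L ih =>
          rw [List.map_cons, List.sum_cons, ih]
          simp [List.sum_smul, Function.comp_def]

/-! ### certificates -/

/-- the data identifying the Lie algebra inside the Clifford algebra -/
structure Cert (n : ℕ) where
  qd : Fin n → ℤ
  bs : Fin n → Fin n → ℤ
  u : ℕ → Fin n
  w : ℕ → Fin n
  σ : ℕ → ℤ
  h : ℕ → List (Fin n × Fin n × ℤ)
  ψ : ℕ → List (Option (Fin n × Fin n) × ℤ)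

variable {n : ℕ} (C : Cert n)

namespace Cert

/-- images of the basis of the Lie algebra -/
def T : ℕ ⊕ ℕ → List (Fin n × Fin n × ℤ)
  | .inl i => C.h i
  | .inr s => [(C.u s, C.w s, C.σ s)]

/-- dual functionals -/
def Ψ : ℕ ⊕ ℕ → List (Option (Fin n × Fin n) × ℤ)
  | .inl i => C.ψ i
  | .inr s => [(some (C.u s, C.w s), C.σ s)]

/-- normal form of a product of two basis vectors -/
def nf (i j : Fin n) (c : ℤ) (d : ℕ) : List ((Option (Fin n × Fin n) × ℕ) × ℤ) :=
  if j < i then mono (some (i, j), d) c else if i = j then mono (none, d) (c * C.qd i)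
  else mono (some (j, i), d) (-c) ++ mono (none, d) (c * C.bs i j)

/-- the column of a Siegel transformation -/
def gCol (r : ℕ) (k : Fin n) : List (Fin n × ℤ × ℕ) :=
  [(k, 1, 0), (C.w r, -C.σ r * C.bs k (C.u r), 1), (C.u r, C.σ r * C.bs k (C.w r), 1),
    (C.u r, -(C.σ r * C.σ r * C.qd (C.w r) * C.bs k (C.u r)), 2)]

/-- image of a column of a root element -/
def lhs (r : ℕ) (col : ℕ ⊕ ℕ) : List ((Option (Fin n × Fin n) × ℕ) × ℤ) :=
  (xCol D r col).flatMap fun p => (C.T p.1).flatMap fun m => C.nf m.1 m.2.1 (p.2.1 * m.2.2) p.2.2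

/-- the Siegel transformation applied to the image of a basis vector -/
def rhs (r : ℕ) (col : ℕ ⊕ ℕ) : List ((Option (Fin n × Fin n) × ℕ) × ℤ) :=
  (C.T col).flatMap fun m => (C.gCol r m.1).flatMap fun a => (C.gCol r m.2.1).flatMap fun b =>
    C.nf a.1 b.1 (m.2.2 * a.2.1 * b.2.1) (a.2.2 + b.2.2)

/-- values of the functionals on products of basis vectors -/
def fn : Option (Fin n × Fin n) → Fin n → Fin n → ℤ
  | none, i, j => if i = j then C.qd i else if i < j then C.bs i j else 0
  | some p, i, j => (if i = p.1 ∧ j = p.2 then 1 else 0) - (if j = p.1 ∧ i = p.2 then 1 else 0)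

/-- pairing of the functionals with the images of the basis -/
def pairing (a b : ℕ ⊕ ℕ) : ℤ :=
  ((C.Ψ a).map fun k => k.2 * ((C.T b).map fun m => m.2.2 * C.fn k.1 m.1 m.2.1).sum).sum

/-- adjacency of basis vectors -/
def Adj (N : ℕ) (i j : Fin n) : Prop := ∃ s < N, (C.u s = i ∧ C.w s = j) ∨ (C.u s = j ∧ C.w s = i)

instance instDecidableAdj (N : ℕ) (i j : Fin n) : Decidable (C.Adj N i j) := by
  unfold Adj; infer_instance

/-- the finite conditions on a certificate -/
structure Valid (e f : Fin n) : Prop where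
  root : ∀ r < D.nroots, C.qd (C.u r) = 0 ∧ C.bs (C.u r) (C.w r) = 0 ∧ C.σ r * C.σ r = 1 ∧
    C.u r ≠ C.w r
  inter₁ : ∀ r < D.nroots, ∀ i < D.rank, same (C.lhs D r (.inl i)) (C.rhs r (.inl i)) = true
  inter₂ : ∀ r < D.nroots, ∀ s < D.nroots, same (C.lhs D r (.inr s)) (C.rhs r (.inr s)) = true
  dual : ∀ a b : D.Idx, C.pairing (code D a) (code D b) = if a = b then 1 else 0
  adj₁ : ∀ i, ∃ j j', j ≠ j' ∧ C.Adj D.nroots i j ∧ C.Adj D.nroots i j'
  adj₂ : ∀ i, ∃ k, C.Adj D.nroots i k ∧ C.Adj D.nroots e k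
  qe : C.qd e = 0
  qf : C.qd f = 0
  be : ∀ j, C.bs e j = if j = f then 1 else 0
  bf : ∀ j, C.bs f j = if j = e then 1 else 0
  gen : ∀ j, j ≠ e → j ≠ f → (∃ r < D.nroots, C.u r = e ∧ C.w r = j) ∧
    ∃ r < D.nroots, C.u r = f ∧ C.w r = j

end Cert

variable {F V : Type*} [Field F] [AddCommGroup V] [Module F V] {Q : QuadraticForm F V}

/-- the action of the orthogonal group on the Clifford algebra -/
noncomputable def rho (g : O Q) : CliffordAlgebra Q →ₐ[F] CliffordAlgebra Q :=
  CliffordAlgebra.map ⟨g.1.toLinearMap, g.2⟩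

theorem rho_ι (g : O Q) (v : V) : rho g (ι Q v) = ι Q (g.1 v) := map_apply_ι _ v

theorem rho_one (x : CliffordAlgebra Q) : rho (1 : O Q) x = x :=
  DFunLike.congr_fun (CliffordAlgebra.map_id Q) x

theorem rho_mul (g h : O Q) (x : CliffordAlgebra Q) : rho (g * h) x = rho g (rho h x) := by
  have : rho (g * h) = (rho g).comp (rho h) := by
    ext m; simp [rho_ι]
  rw [this]; rfl

variable (Q) (bm : Module.Basis (Fin n) F V)

/-- product of two basis vectors -/
noncomputable def mu (i j : Fin n) : CliffordAlgebra Q := ι Q (bm i) * ι Q (bm j)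

/-- value of a key -/
noncomputable def val (t : F) (k : Option (Fin n × Fin n) × ℕ) : CliffordAlgebra Q :=
  t ^ k.2 • k.1.elim 1 fun p => mu Q bm p.1 p.2

/-- image of a basis vector of the Lie algebra -/
noncomputable def phi (a : ℕ ⊕ ℕ) : CliffordAlgebra Q :=
  ((C.T a).map fun m => (m.2.2 : F) • mu Q bm m.1 m.2.1).sum

/-- the embedding of the Lie algebra -/
noncomputable def Phi : (D.Idx → F) →ₗ[F] CliffordAlgebra Q :=
  Fintype.linearCombination F fun a => phi C Q bm (code D a)

/-- the Siegel transformation attached to a root -/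
noncomputable def gam (r : ℕ) (t : F) : O Q :=
  eich Q (bm (C.u r)) ((-(C.σ r : F) * t) • bm (C.w r))

/-- the scalar part -/
noncomputable def eps : CliffordAlgebra Q →ₗ[F] F :=
  (ExteriorAlgebra.algebraMapInv (R := F) (M := V)).toLinearMap ∘ₗ
    changeForm (Q := Q) (Q' := 0) (B := -Q.toBilin bm) (by
      ext x
      have := DFunLike.congr_fun (toQuadraticMap_toBilin Q bm) x
      simpa using this)

theorem eps_algebraMap (c : F) : eps Q bm (algebraMap F _ c) = c := by
  simp only [eps, LinearMap.comp_apply, changeForm_algebraMap]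
  exact ExteriorAlgebra.algebraMap_leftInverse V c

theorem eps_mul (p q : V) : eps Q bm (ι Q p * ι Q q) = Q.toBilin bm p q := by
  simp only [eps, LinearMap.comp_apply, changeForm_ι_mul_ι, map_sub, AlgHom.toLinearMap_apply,
    map_mul, AlgHom.commutes]
  have : ExteriorAlgebra.algebraMapInv (R := F) (M := V) (ι 0 p) = 0 := by
    simp [ExteriorAlgebra.algebraMapInv]
  simp [this]

theorem contract_mul (d : Module.Dual F V) (p q : V) :
    contractLeft d (ι Q p * ι Q q) = ι Q (d p • q - d q • p) := by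
  rw [contractLeft_ι_mul, contractLeft_ι, map_sub, map_smul, map_smul, ← Algebra.commutes,
    ← Algebra.smul_def]

/-- the functionals on the Clifford algebra -/
noncomputable def fnl : Option (Fin n × Fin n) → CliffordAlgebra Q →ₗ[F] F
  | none => eps Q bm
  | some p => eps Q bm ∘ₗ contractLeft (bm.coord p.2) ∘ₗ contractLeft (bm.coord p.1)

variable {C Q bm}

theorem iota_injective (bm : Module.Basis (Fin n) F V) : Function.Injective (ι Q) := by
  intro p q h
  refine bm.ext_elem fun i => ?_
  have := congrArg (fun x => eps Q bm (contractLeft (bm.coord i) x)) h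
  simpa only [contractLeft_ι, eps_algebraMap, Module.Basis.coord_apply] using this

section tables

variable (hq : ∀ i, Q (bm i) = C.qd i) (hb : ∀ i j, polar Q (bm i) (bm j) = C.bs i j)
include hq hb

theorem fnl_mu (k : Option (Fin n × Fin n)) (i j : Fin n) :
    fnl Q bm k (mu Q bm i j) = C.fn k i j := by
  rcases k with _ | p
  · simp only [fnl, mu, eps_mul, toBilin_apply, Cert.fn, hq, hb]
    split_ifs <;> simp
  · simp only [fnl, mu, LinearMap.comp_apply, contract_mul, contractLeft_ι, eps_algebraMap,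
      Cert.fn]
    simp only [map_sub, map_smul, Module.Basis.coord_apply, Module.Basis.repr_self,
      Finsupp.single_apply, ite_and]
    split_ifs <;> simp

theorem ev_nf (t : F) (i j : Fin n) (c : ℤ) (d : ℕ) :
    ev F (val Q bm t) (C.nf i j c d) = ((c : F) * t ^ d) • mu Q bm i j := by
  unfold Cert.nf
  split_ifs with h1 h2
  · simp [ev_mono, val, smul_smul]
  · subst h2
    rw [ev_mono, mu, ι_sq_scalar, Algebra.algebraMap_eq_smul_one, hq]
    simp only [val, Option.elim, Int.cast_mul]
    module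
  · have : mu Q bm i j = -mu Q bm j i + (C.bs i j : F) • 1 := by
      rw [← hb, ← Algebra.algebraMap_eq_smul_one, ← ι_mul_ι_add_swap, mu, mu]; abel
    rw [ev_append, ev_mono, ev_mono, this]
    simp only [val, Option.elim, Int.cast_neg, Int.cast_mul]
    module

theorem gam_basis {r : ℕ} (h1 : C.qd (C.u r) = 0) (h2 : C.bs (C.u r) (C.w r) = 0) (t : F)
    (k : Fin n) : (gam C Q bm r t).1 (bm k) =
      ((C.gCol r k).map fun a => ((a.2.1 : F) * t ^ a.2.2) • bm a.1).sum := by
  rw [gam, eich_apply (by simp [hq, h1]) (by qsimp; simp [hb, h2])]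
  qsimp
  simp only [hq, hb, Cert.gCol, List.map_cons, List.sum_cons, List.map_nil, List.sum_nil]
  push_cast
  module

theorem Phi_xMat {e f : Fin n} (hC : C.Valid D e f) (r : Fin D.nroots) (t : F) (l : D.Idx → F) :
    Phi D C Q bm (D.xMat F r t *ᵥ l) = rho (gam C Q bm r t) (Phi D C Q bm l) := by
  suffices Phi D C Q bm ∘ₗ Matrix.toLin' (D.xMat F r t) =
      (rho (gam C Q bm r t)).toLinearMap ∘ₗ Phi D C Q bm from DFunLike.congr_fun this l
  refine (Pi.basisFun F D.Idx).ext fun col => ?_
  obtain ⟨h1, h2, -⟩ := hC.root r r.2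
  have hs : same (C.lhs D r (code D col)) (C.rhs r (code D col)) = true := by
    rcases col with i | s
    · exact hC.inter₁ r r.2 i i.2
    · exact hC.inter₂ r r.2 s s.2
  have := ev_eq_of_same (F := F) (val Q bm t) hs
  simp only [LinearMap.comp_apply, Pi.basisFun_apply, Matrix.toLin'_apply, Matrix.mulVec_single_one,
    Phi, Fintype.linearCombination_apply_single, one_smul, AlgHom.toLinearMap_apply]
  rw [Fintype.linearCombination_apply]
  simp only [Matrix.col_apply]
  rw [sum_xMat]
  convert this using 1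
  · simp only [Cert.lhs, ev_flatMap, ev_nf hq hb, phi, List.smul_sum, List.map_map,
      Function.comp_def, smul_smul]
    congr 2; ext p; congr 2; ext m; congr 1; push_cast; ring
  · simp only [Cert.rhs, ev_flatMap, ev_nf hq hb, phi, map_list_sum, List.map_map,
      Function.comp_def, map_smul, mu, map_mul, rho_ι, gam_basis hq hb h1 h2,
      ← List.sum_map_mul_right]
    simp only [← List.sum_map_mul_left, List.smul_sum, smul_mul_smul_comm, smul_smul, List.map_map,
      Function.comp_def]
    congr 2; ext m; congr 2; ext a; congr 2; ext b; congr 1; push_cast; ring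

theorem Phi_injective {e f : Fin n} (hC : C.Valid D e f) : Function.Injective (Phi D C Q bm) := by
  rw [injective_iff_map_eq_zero]
  intro l hl
  ext a
  have := congrArg ((C.Ψ (code D a)).map fun k => (k.2 : F) • fnl Q bm k.1).sum hl
  have key : ∀ b, ((C.Ψ (code D a)).map fun k => (k.2 : F) • fnl Q bm k.1).sum
      (phi C Q bm (code D b)) = if a = b then 1 else 0 := fun b => by
    have h1 := congrArg (Int.cast : ℤ → F) (hC.dual a b)
    rw [Cert.pairing] at h1
    push_cast at h1
    rw [← h1]
    generalize C.Ψ (code D a) = L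
    induction L with
    | nil => simp
    | cons k L ih =>
      simp only [List.map_cons, List.sum_cons, LinearMap.add_apply, ih]
      simp [phi, map_list_sum, Function.comp_def, fnl_mu hq hb, List.sum_map_mul_left]
  simpa [Phi, Fintype.linearCombination_apply, key, -Fintype.sum_sum_type] using this

end tables

/-- an isometry fixing enough products of basis vectors is a scalar -/
theorem scalar_of_fix {e f : Fin n} (hC : C.Valid D e f) (g : O Q)
    (hg : ∀ l, rho g (Phi D C Q bm l) = Phi D C Q bm l) :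
    ∃ c : F, c * c = 1 ∧ ∀ x, g.1 x = c • x := by
  have h0 : ∀ i j, C.Adj D.nroots i j → i ≠ j ∧ ∀ d : Module.Dual F V,
      d (g.1 (bm i)) • g.1 (bm j) - d (g.1 (bm j)) • g.1 (bm i) =
        d (bm i) • bm j - d (bm j) • bm i := by
    rintro i j ⟨s, hs, h⟩
    obtain ⟨-, -, h3, h4⟩ := hC.root s hs
    have h1 := hg (Pi.single (.inr ⟨s, hs⟩) 1)
    have h5 : (C.σ s : F) ≠ 0 := by
      have := congrArg (Int.cast : ℤ → F) h3
      push_cast at this
      exact left_ne_zero_of_mul_eq_one this
    simp only [Phi, Fintype.linearCombination_apply_single, one_smul, phi, code, Sum.map_inr,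
      Cert.T, List.map_cons, List.map_nil, List.sum_cons, List.sum_nil, add_zero, map_smul, mu,
      map_mul, rho_ι] at h1
    have h2 := fun d : Module.Dual F V =>
      congrArg (contractLeft d) (smul_right_injective _ h5 h1)
    simp only [contract_mul, (iota_injective bm).eq_iff] at h2
    rcases h with ⟨rfl, rfl⟩ | ⟨rfl, rfl⟩
    · exact ⟨h4, h2⟩
    · exact ⟨h4.symm, fun d => by linear_combination (norm := module) -h2 d⟩
  have h1 : ∀ i j k, C.Adj D.nroots i j → k ≠ i → k ≠ j → bm.repr (g.1 (bm i)) k = 0 := by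
    intro i j k h hki hkj
    have h2 := (h0 i j h).2 (bm.coord k)
    rw [← map_smul g.1, ← map_smul g.1, ← map_sub g.1] at h2
    simp only [Module.Basis.coord_apply, Module.Basis.repr_self, Finsupp.single_apply,
      if_neg hki.symm, if_neg hkj.symm, zero_smul, sub_self, EmbeddingLike.map_eq_zero_iff] at h2
    simpa [Finsupp.single_apply, (h0 i j h).1] using congrArg (fun x => bm.repr x j) h2
  have h2 : ∀ i, g.1 (bm i) = (bm.repr (g.1 (bm i)) i : F) • (bm i : V) := fun i => by
    obtain ⟨j, j', hj, a, a'⟩ := hC.adj₁ i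
    refine bm.ext_elem fun k => ?_
    by_cases hk : k = i
    · simp [hk]
    · by_cases hkj : k = j
      · simp [h1 i j' k a' hk (hkj ▸ hj), Ne.symm hk]
      · simp [h1 i j k a hk hkj, Ne.symm hk]
  have h3 : ∀ i j, C.Adj D.nroots i j → bm.repr (g.1 (bm i)) i * bm.repr (g.1 (bm j)) j = 1 := by
    intro i j h
    have h4 := congrArg (fun x => bm.repr x j) ((h0 i j h).2 (bm.coord i))
    have hij := (h0 i j h).1
    rw [h2 i, h2 j] at h4
    simpa [Finsupp.single_apply, hij, hij.symm] using h4
  have h4 : ∀ i, bm.repr (g.1 (bm i)) i = bm.repr (g.1 (bm e)) e := fun i => by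
    obtain ⟨k, a, a'⟩ := hC.adj₂ i
    exact mul_right_cancel₀ (right_ne_zero_of_mul_eq_one (h3 i k a)) ((h3 i k a).trans (h3 e k a').symm)
  obtain ⟨k, a, -⟩ := hC.adj₂ e
  refine ⟨bm.repr (g.1 (bm e)) e, by simpa [h4] using h3 e k a, fun x => ?_⟩
  have : (g.1 : V →ₗ[F] V) = bm.repr (g.1 (bm e)) e • LinearMap.id :=
    bm.ext fun i => by simpa [h4 i] using h2 i
  exact DFunLike.congr_fun this x

theorem fix_of_scalar (g : O Q) {c : F} (hc : c * c = 1) (hg : ∀ x, g.1 x = c • x) (l : D.Idx → F) :
    rho g (Phi D C Q bm l) = Phi D C Q bm l := by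
  simp [Phi, Fintype.linearCombination_apply, phi, map_list_sum, Function.comp_def, mu, rho_ι, hg,
    smul_smul, hc]

theorem nonempty_equiv (hq : ∀ i, Q (bm i) = C.qd i) (hb : ∀ i j, polar Q (bm i) (bm j) = C.bs i j)
    {e f : Fin n} (hC : C.Valid D e f) (hQ : NS Q) (hn : 3 ≤ n) :
    Nonempty (D.group F ≃* E Q ⧸ Subgroup.center (E Q)) := by
  have := bm.finiteDimensional_of_finite
  have hn' : 3 ≤ Module.finrank F V := by rw [Module.finrank_eq_card_basis bm]; simpa using hn
  have p : Hyp Q (bm e) (bm f) := ⟨by simp [hq, hC.qe], by simp [hq, hC.qf], by simp [hb, hC.be]⟩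
  have hinj := Phi_injective D hq hb hC
  let Γ : Subgroup (GL D.Idx F × O Q) :=
    { carrier := {x | ∀ l, Phi D C Q bm (x.1.1 *ᵥ l) = rho x.2 (Phi D C Q bm l)}
      one_mem' := fun l => by simp [rho_one]
      mul_mem' := fun {a b} ha hb l => by
        rw [Prod.fst_mul, Prod.snd_mul, Units.val_mul, ← Matrix.mulVec_mulVec, ha, hb, rho_mul]
      inv_mem' := fun {a} ha l => by
        have := congrArg (rho a⁻¹.2) (ha (a⁻¹.1.1 *ᵥ l))
        rw [← rho_mul, Matrix.mulVec_mulVec, ← Units.val_mul, ← Prod.fst_mul, ← Prod.snd_mul,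
          mul_inv_cancel, inv_mul_cancel] at this
        simpa [rho_one] using this.symm }
  let S : Set (GL D.Idx F × O Q) :=
    {x | ∃ (r : Fin D.nroots) (t : F), x.1.1 = D.xMat F r t ∧ x.2 = gam C Q bm r t}
  have hS : Subgroup.closure S ≤ Γ := by
    rw [Subgroup.closure_le]
    rintro x ⟨r, t, h1, h2⟩ l
    rw [h1, h2, Phi_xMat D hq hb hC]
  have hunit : ∀ (r : Fin D.nroots) (t : F), ∃ x : GL D.Idx F, x.1 = D.xMat F r t := fun r t => by
    refine Matrix.mulVec_injective_iff_isUnit.mp fun l l' h => hinj ?_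
    have := congrArg (fun z => rho (gam C Q bm r t)⁻¹ (Phi D C Q bm z)) h
    simpa only [Phi_xMat D hq hb hC, ← rho_mul, inv_mul_cancel, rho_one] using this
  have h1 : (Subgroup.closure S).map (MonoidHom.fst _ _) = D.group F := by
    rw [MonoidHom.map_closure, ChevalleyDatum.group]
    congr 1
    ext x
    exact ⟨by rintro ⟨y, ⟨r, t, h, -⟩, rfl⟩; exact ⟨r, t, h⟩,
      fun ⟨r, t, h⟩ => ⟨(x, gam C Q bm r t), ⟨r, t, h, rfl⟩, rfl⟩⟩
  have h2 : (Subgroup.closure S).map (MonoidHom.snd _ _) = E Q := by
    apply le_antisymm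
    · rw [MonoidHom.map_closure, Subgroup.closure_le]
      rintro _ ⟨y, ⟨r, t, -, h⟩, rfl⟩
      change y.2 ∈ E Q
      rw [h]; exact eich_mem_E _ _
    · have hgam : ∀ r < D.nroots, ∀ c : F, eich Q (bm (C.u r)) (c • bm (C.w r)) ∈
          (Subgroup.closure S).map (MonoidHom.snd _ _) := fun r hr c => by
        obtain ⟨x, hx⟩ := hunit ⟨r, hr⟩ (-(C.σ r : F) * c)
        refine ⟨(x, _), Subgroup.subset_closure ⟨⟨r, hr⟩, _, hx, rfl⟩, ?_⟩
        have := congrArg (Int.cast : ℤ → F) (hC.root r hr).2.2.1
        push_cast at this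
        change gam C Q bm r _ = _
        rw [gam]; congr 2; linear_combination c * this
      have hspan : ∀ w, polar Q (bm e) w = 0 → polar Q (bm f) w = 0 →
          w ∈ Submodule.span F (bm '' {j | j ≠ e ∧ j ≠ f}) := fun w h1 h2 => by
        rw [bm.mem_span_image]
        intro j hj
        rw [← bm.sum_repr w, ← polarBilin_apply_apply, map_sum] at h1 h2
        simp only [map_smul, polarBilin_apply_apply, hb, hC.be, hC.bf] at h1 h2
        simp at h1 h2 hj
        exact ⟨fun h => hj (h ▸ h2), fun h => hj (h ▸ h1)⟩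
      refine p.E_le' hQ (fun w h1 h2 => eich_mem_of_span p.he ?_ (hspan w h1 h2))
        (fun w h1 h2 => eich_mem_of_span p.hf ?_ (hspan w h1 h2))
        (p.exists_nonsing_of_finrank hQ hn')
      · rintro _ ⟨j, ⟨hj, hj'⟩, rfl⟩ c
        obtain ⟨⟨r, hr, rfl, rfl⟩, -⟩ := hC.gen j hj hj'
        exact ⟨by simp [hb, hC.be, hj'], hgam r hr c⟩
      · rintro _ ⟨j, ⟨hj, hj'⟩, rfl⟩ c
        obtain ⟨-, r, hr, rfl, rfl⟩ := hC.gen j hj hj'
        exact ⟨by simp [hb, hC.bf, hj], hgam r hr c⟩
  let p1 : Subgroup.closure S →* D.group F :=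
    ((MonoidHom.fst _ _).comp (Subgroup.closure S).subtype).codRestrict _
      fun x => h1 ▸ ⟨x.1, x.2, rfl⟩
  let p2 : Subgroup.closure S →* E Q :=
    ((MonoidHom.snd _ _).comp (Subgroup.closure S).subtype).codRestrict _
      fun x => h2 ▸ ⟨x.1, x.2, rfl⟩
  have hp1 : Function.Surjective p1 := fun y => by
    obtain ⟨x, hx, h⟩ := h1.ge y.2
    exact ⟨⟨x, hx⟩, Subtype.ext h⟩
  have hker : ∀ x : Subgroup.closure S,
      x.1.1 = 1 ↔ ∀ l, rho x.1.2 (Phi D C Q bm l) = Phi D C Q bm l := fun x => by
    constructor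
    · intro h l; rw [← hS x.2 l, h]; simp
    · intro h
      refine Units.ext (Matrix.toLin'.injective (LinearMap.ext fun l => hinj ?_))
      rw [Matrix.toLin'_apply, hS x.2 l, h]; simp
  have hp2 : Function.Bijective p2 := by
    constructor
    · rw [injective_iff_map_eq_one]
      intro x hx
      have h : x.1.2 = 1 := congrArg Subtype.val hx
      exact Subtype.ext (Prod.ext ((hker x).mpr fun l => by rw [h, rho_one]) h)
    · intro y
      obtain ⟨x, hx, h⟩ := h2.ge y.2
      exact ⟨⟨x, hx⟩, Subtype.ext h⟩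
  let e2 := MulEquiv.ofBijective p2 hp2
  refine ⟨(Cl.centerQuotOfKer p1 hp1 ?_).symm.trans (Cl.centerQuotCongr e2)⟩
  ext x
  rw [MonoidHom.mem_ker, Subtype.ext_iff]
  refine Iff.trans ?_ (MulEquivClass.apply_mem_center_iff e2)
  refine Iff.trans ?_ (mem_center_E_iff hQ hn' p _).symm
  exact (hker x).trans ⟨scalar_of_fix D hC _, fun ⟨c, hc, h⟩ => fix_of_scalar D _ hc h⟩

end CA.ChevO
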